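import Cfsg.Agent.MaxSub.TensorMax.SympFix

/-!
Either all elements are tensor products, or there is an elation among the members.
-/

set_option autoImplicit false

namespace Cfsg.Agent.MaxSub.TensorMax

open Module Matrix QuadraticMap Cfsg.Agent.MaxSub.ExtField

variable {F : Type*} [Field F] {a b : ℕ}

lemma Tens.mul {g h : Matrix (Fin a) (Fin b) F ≃ₗ[F] Matrix (Fin a) (Fin b) F} (hg : Tens g)
    (hh : Tens h) : Tens (g * h) := by
  obtain ⟨A, B, hA⟩ := hg
  obtain ⟨A', B', hA'⟩ := hh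
  exact ⟨A * A', B' * B, fun X => by
    rw [LinearEquiv.mul_apply, hA', hA]; simp only [Matrix.mul_assoc]⟩

lemma Tens.inv (ha : 0 < a) (hb : 0 < b)
    {g : Matrix (Fin a) (Fin b) F ≃ₗ[F] Matrix (Fin a) (Fin b) F} (hg : Tens g) : Tens g⁻¹ := by
  classical
  obtain ⟨A, B, hA⟩ := hg
  have hAB : ∀ w u, g (colMap w u) = colMap (w ᵥ* B) (A *ᵥ u) := fun w u => by
    rw [hA, colMap_apply, colMap_apply, mul_vecMulVec, vecMulVec_mul]
  have hAu : IsUnit A := Matrix.mulVec_injective_iff_isUnit.1 fun u u' h => by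
    have h1 : colMap (Pi.single ⟨0, hb⟩ 1) u = colMap (Pi.single ⟨0, hb⟩ 1) u' :=
      g.injective (by rw [hAB, hAB, show A *ᵥ u = A *ᵥ u' from h])
    exact colMap_injective (fun h0 => one_ne_zero
      (by simpa using congrFun h0 ⟨0, hb⟩ : (1 : F) = 0)) h1
  have hBu : IsUnit B := Matrix.vecMul_injective_iff_isUnit.1 fun w w' h => by
    have h1 := g.injective (show g (colMap w (Pi.single ⟨0, ha⟩ 1)) =
      g (colMap w' (Pi.single ⟨0, ha⟩ 1)) by rw [hAB, hAB, show w ᵥ* B = w' ᵥ* B from h])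
    funext j
    simpa [colMap_apply, vecMulVec_apply] using congrFun (congrFun h1 ⟨0, ha⟩) j
  refine ⟨A⁻¹, B⁻¹, fun X => g.injective ?_⟩
  rw [self_inv_apply, hA, ← Matrix.mul_assoc, ← Matrix.mul_assoc,
    Matrix.mul_nonsing_inv _ ((Matrix.isUnit_iff_isUnit_det A).1 hAu), Matrix.one_mul,
    Matrix.mul_assoc, Matrix.nonsing_inv_mul _ ((Matrix.isUnit_iff_isUnit_det B).1 hBu),
    Matrix.mul_one]

namespace SData

variable {D : SData F a b} {G : Subgroup (Matrix (Fin a) (Fin b) F ≃ₗ[F] Matrix (Fin a) (Fin b) F)}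
  (hG : D.Good G)
include hG

/-- The alternative. -/
theorem alternative (ha : 2 ≤ a) (hab : a + 2 ≤ b) (hb : 6 ≤ b)
    (hbig : (∃ t : F, t ≠ 0 ∧ t ≠ 1) ∨ 3 ≤ a) :
    (∀ g ∈ G, Tens g) ∨ ∃ d, d ≠ 0 ∧ D.Nset G (elat D.f d) := by
  classical
  refine or_iff_not_imp_right.2 fun hno g₀ hg₀ => ?_
  have hsc : ∀ N, D.Nset G N → ∃ c : F, N = c • LinearMap.id := by
    intro N hN
    by_cases hz : ∃ z, N z ∉ F ∙ z
    · obtain ⟨z, hz⟩ := hz
      have hbig' : (∃ t : F, t ≠ 0 ∧ t ≠ 1) ∨ 3 ≤ finrank F (Fin a → F) := by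
        rwa [finrank_fin_fun]
      exact (hno (D.hf.exists_elat_mem (P := D.Nset G) (fun _ _ h h' => h.add h')
        (fun c _ h => h.smul c) (fun _ _ h h' => h.mul hG hb h') (fun z t _ h => h.conj hG z t)
        hbig' hN hz)).elim
    · push Not at hz
      exact eq_smul_id N fun z => by
        obtain ⟨c, hc⟩ := Submodule.mem_span_singleton.1 (hz z)
        exact ⟨c, hc.symm⟩
  have hmove : ∀ v w : Fin b → F, v ≠ 0 → w ≠ 0 →
      ∃ τ ∈ G, Tens τ ∧ ∀ u, τ (colMap v u) = colMap w u := by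
    intro v w hv hw
    refine D.hg.elat_transitive (P := fun x => ∃ τ ∈ G, Tens τ ∧ ∀ u, τ (colMap v u) = colMap x u)
      hv hw ⟨1, one_mem G, ⟨1, 1, fun X => by simp⟩, fun u => rfl⟩ fun c t x hx => ?_
    obtain ⟨τ, hτ, hτ', hτx⟩ := hx
    obtain ⟨T, hT, hTx⟩ := hG.right c (-t)
    refine ⟨T * τ, mul_mem hT hτ, Tens.mul ⟨1, 1 + (-t) • vecMulVec (D.η c) c, fun X => ?_⟩ hτ',
      fun u => ?_⟩
    · rw [hTx, Matrix.one_mul, Matrix.mul_add, Matrix.mul_one, Matrix.mul_smul, mul_vecMulVec]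
      rfl
    · rw [LinearEquiv.mul_apply, hτx, hTx]
      simp [cr_apply, row_col, col_add, colMap_smul_right, D.hg.skew x c]
      module
  have hfix : ∀ g ∈ G, ∀ w v : Fin b → F, w ≠ 0 → v ≠ 0 →
      (line (a := a) w).map g.toLinearMap = line v → Tens g := by
    intro g hg w v hw hv he
    obtain ⟨τ, hτ, hτ', hτx⟩ := hmove v w hv hw
    have h1 : (line (a := a) w).map (τ * g).toLinearMap = line w := by
      rw [show ((τ * g : _ ≃ₗ[F] _)).toLinearMap = τ.toLinearMap ∘ₗ g.toLinearMap from rfl,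
        Submodule.map_comp, he, line, ← LinearMap.range_comp, line]
      exact congrArg LinearMap.range (LinearMap.ext hτx)
    have h2 := tens_of_fix hG hb ha hbig hsc (mul_mem hτ hg) hw h1
    have h3 := (hτ'.inv (by omega) (by omega)).mul h2
    rwa [inv_mul_cancel_left] at h3
  by_contra hg₀'
  have hne : ∀ g ∈ G, ¬ Tens g → ∀ w v : Fin b → F, w ≠ 0 → v ≠ 0 →
      ¬ (line (a := a) w).map g.toLinearMap ≤ line v := by
    intro g hg hgt w v hw hv hle
    exact hgt (hfix g hg w v hw hv (Submodule.eq_of_le_of_finrank_eq hle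
      (by rw [LinearEquiv.finrank_map_eq, finrank_line hw, finrank_line hv])))
  let P : ℕ → Prop := fun n => ∃ g ∈ G, ¬ Tens g ∧ ∃ w v : Fin b → F, w ≠ 0 ∧ v ≠ 0 ∧
    finrank F ↥((line (a := a) w).map g.toLinearMap ⊓ line v) = n
  have hb0 : ∀ g : Matrix (Fin a) (Fin b) F ≃ₗ[F] Matrix (Fin a) (Fin b) F, ∀ w v : Fin b → F,
      v ≠ 0 → finrank F ↥((line (a := a) w).map g.toLinearMap ⊓ line v) ≤ a := fun g w v hv =>
    (Submodule.finrank_mono inf_le_right).trans (finrank_line hv).le
  obtain ⟨e, he⟩ : ∃ e : Fin b → F, e ≠ 0 :=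
    ⟨Pi.single ⟨0, by omega⟩ 1, fun h0 => one_ne_zero
      (by simpa using congrFun h0 ⟨0, by omega⟩ : (1 : F) = 0)⟩
  obtain ⟨g, hg, hgt, w, v, hw, hv, hd⟩ : P (Nat.findGreatest P a) :=
    Nat.findGreatest_spec (hb0 g₀ e e he) ⟨g₀, hg₀, hg₀', e, e, he, he, rfl⟩
  set S := (line (a := a) w).map g.toLinearMap ⊓ line v with hS
  obtain ⟨x, hxw, hxv⟩ := SetLike.not_le_iff_exists.1 (hne g hg hgt w v hw hv)
  obtain ⟨c, hcx, hvc, hc⟩ : ∃ c, rowMap (D.η c) x = 0 ∧ D.g v c = 0 ∧ c ≠ 0 := by
    let φ : (Fin b → F) →ₗ[F] (Fin a → F) × F := LinearMap.prod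
      { toFun := fun c => rowMap (D.η c) x
        map_add' := fun c c' => by rw [map_add, rowMap_add]
        map_smul' := fun r c => by rw [map_smul, rowMap_smul, RingHom.id_apply] } (D.g v)
    obtain ⟨c, hc, hc0⟩ := Submodule.exists_mem_ne_zero_of_ne_bot
      (LinearMap.ker_ne_bot_of_finrank_lt (f := φ) (by simp; omega))
    exact ⟨c, congrArg Prod.fst (LinearMap.mem_ker.1 hc),
      congrArg Prod.snd (LinearMap.mem_ker.1 hc), hc0⟩
  obtain ⟨T, hT, hTx⟩ := hG.right c 1
  have hTx' : ∀ X, T X = X + colMap c (rowMap (D.η c) X) := fun X => by rw [hTx, one_smul]; rfl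
  set g' := g⁻¹ * T * g with hg'
  have hg'x : ∀ X, g' X - X = g⁻¹ (colMap c (rowMap (D.η c) (g X))) := fun X => by
    rw [hg', LinearEquiv.mul_apply, LinearEquiv.mul_apply, hTx', map_add, inv_apply_self,
      add_sub_cancel_left]
  have himg : ∀ X, g' X - X ∈ (line (a := a) c).map (g⁻¹ : _ ≃ₗ[F] _).toLinearMap := fun X => by
    rw [hg'x]; exact Submodule.mem_map_of_mem ⟨_, rfl⟩
  have hfin : finrank F ↥((line (a := a) c).map (g⁻¹ : _ ≃ₗ[F] _).toLinearMap) = a := by
    rw [LinearEquiv.finrank_map_eq, finrank_line hc]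
  -- the conjugate transvection is not a tensor product
  have hg't : ¬ Tens g' := by
    rintro ⟨A, B, hAB⟩
    have hABc : ∀ w u, g' (colMap w u) = colMap (w ᵥ* B) (A *ᵥ u) := fun w u => by
      rw [hAB, colMap_apply, colMap_apply, mul_vecMulVec, vecMulVec_mul]
    by_cases hA : ∀ u, ∃ s : F, A *ᵥ u = s • u
    · obtain ⟨s, hs⟩ := eq_smul_id A.mulVecLin hA
      have hs' : ∀ u, A *ᵥ u = s • u := fun u => by
        have := LinearMap.congr_fun hs u; simpa using this
      have hgw : ∀ w u, g' (colMap w u) - colMap w u = colMap (s • (w ᵥ* B) - w) u := fun w u => by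
        rw [hABc, hs', map_smul, sub_eq_add_neg (s • (w ᵥ* B)), col_add, colMap_smul_right,
          ← neg_one_smul F w, colMap_smul_right, neg_one_smul, sub_eq_add_neg]
      obtain ⟨w', hw'⟩ : ∃ w', s • (w' ᵥ* B) - w' ≠ 0 := by
        by_contra hall
        push Not at hall
        have hone : ∀ X, g' X = X := fun X => by
          refine ext_colMap (φ := g'.toLinearMap) (ψ := LinearMap.id) (fun w u => ?_) X
          show g' (colMap w u) = colMap w u
          refine sub_eq_zero.1 ?_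
          rw [hgw, hall]
          ext i j; simp [colMap_apply, vecMulVec_apply]
        obtain ⟨x₀, hx₀⟩ : ∃ x₀, D.g x₀ c ≠ 0 := by
          by_contra hall'
          push Not at hall'
          exact hc (D.hg.nd c fun u => by rw [D.hg.skew, hall', neg_zero])
        set u₀ : Fin a → F := Pi.single ⟨0, by omega⟩ 1 with hu₀
        have h1 := hg'x (g⁻¹ (colMap x₀ u₀))
        rw [hone, sub_self, self_inv_apply, row_col, eq_comm] at h1
        have h2 : colMap c (D.g x₀ c • u₀) = colMap c 0 :=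
          (g⁻¹ : _ ≃ₗ[F] _).injective (by rw [h1, map_zero, map_zero])
        have h3 := congrFun (colMap_injective hc h2) ⟨0, by omega⟩
        exact hx₀ (by simpa [hu₀] using h3)
      refine hne g hg hgt _ c hw' hc ?_
      have hle : line (a := a) (s • (w' ᵥ* B) - w') ≤
          (line (a := a) c).map (g⁻¹ : _ ≃ₗ[F] _).toLinearMap := by
        rintro _ ⟨u, rfl⟩
        rw [← hgw]; exact himg _
      have heq := Submodule.eq_of_le_of_finrank_eq hle (by rw [hfin, finrank_line hw'])
      rw [heq, ← Submodule.map_comp]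
      rintro _ ⟨y, hy, rfl⟩
      show g (g⁻¹ y) ∈ line c
      rwa [self_inv_apply]
    · push Not at hA
      obtain ⟨u, hu⟩ := hA
      obtain ⟨φ, hφu, hφA⟩ := exists_functional (F := F) (x := u) (y := A *ᵥ u) fun h => by
        obtain ⟨s, hs⟩ := Submodule.mem_span_singleton.1 h
        exact hu s hs.symm
      let Ψ : (Fin b → F) →ₗ[F] ↥((line (a := a) c).map (g⁻¹ : _ ≃ₗ[F] _).toLinearMap) :=
        { toFun := fun w => ⟨g' (colMap w u) - colMap w u, himg _⟩
          map_add' := fun w w' => Subtype.ext (by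
            show _ = (g' (colMap w u) - colMap w u) + (g' (colMap w' u) - colMap w' u)
            simp only [col_add, map_add]; abel)
          map_smul' := fun r w => Subtype.ext (by
            show _ = r • (g' (colMap w u) - colMap w u)
            simp only [colMap_smul_right, map_smul, smul_sub]) }
      have hinj : Function.Injective Ψ := by
        rw [← LinearMap.ker_eq_bot, LinearMap.ker_eq_bot']
        intro w hw
        have h1 : g' (colMap w u) - colMap w u = 0 := congrArg Subtype.val hw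
        rw [hABc, sub_eq_zero] at h1
        have h2 : w ᵥ* B = 0 := funext fun j => by
          have h3 := congrArg φ (show (fun i => colMap (w ᵥ* B) (A *ᵥ u) i j) =
            fun i => colMap w u i j by rw [h1])
          rw [show (fun i => colMap (w ᵥ* B) (A *ᵥ u) i j) = (w ᵥ* B) j • (A *ᵥ u) from
              funext fun i => by simp [colMap_apply, vecMulVec_apply, mul_comm],
            show (fun i => colMap w u i j) = w j • u from
              funext fun i => by simp [colMap_apply, vecMulVec_apply, mul_comm],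
            map_smul, map_smul, hφA, hφu, smul_eq_mul, mul_one, smul_zero] at h3
          exact h3
        have h4 : g' (colMap w u) = g' 0 := by
          rw [hABc, h2, map_zero]; ext i j; simp [colMap_apply, vecMulVec_apply]
        obtain ⟨i, hi⟩ := Function.ne_iff.1 (show u ≠ 0 from fun h0 => hu 0 (by simp [h0]))
        have hi' : u i ≠ 0 := hi
        funext j
        simpa [colMap_apply, vecMulVec_apply, hi'] using congrFun (congrFun (g'.injective h4) i) j
      have := LinearMap.finrank_le_finrank_of_injective hinj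
      rw [hfin, finrank_fin_fun] at this
      omega
  -- its intersection is larger
  set S' := S ⊔ F ∙ x with hS'
  have hkill : ∀ y ∈ S', rowMap (D.η c) y = 0 := by
    intro y hy
    obtain ⟨y₁, hy₁, y₂, hy₂, rfl⟩ := Submodule.mem_sup.1 hy
    obtain ⟨u, rfl⟩ := hy₁.2
    obtain ⟨r, rfl⟩ := Submodule.mem_span_singleton.1 hy₂
    rw [map_add, map_smul, hcx, row_col, hvc, zero_smul, smul_zero, add_zero]
  have hS'w : S' ≤ (line (a := a) w).map g.toLinearMap :=
    sup_le inf_le_left ((Submodule.span_singleton_le_iff_mem _ _).2 hxw)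
  have hle : S'.map (g⁻¹ : _ ≃ₗ[F] _).toLinearMap ≤
      (line (a := a) w).map g'.toLinearMap ⊓ line w := by
    rintro _ ⟨y, hy, rfl⟩
    obtain ⟨y', hy', hyy⟩ := hS'w hy
    have h1 : g⁻¹ y = y' := by rw [← hyy]; exact inv_apply_self g y'
    show g⁻¹ y ∈ _
    refine ⟨⟨y', hy', ?_⟩, by rw [h1]; exact hy'⟩
    show g' y' = g⁻¹ y
    have h2 := hg'x y'
    rw [show g y' = y from hyy, hkill y hy, map_zero, map_zero, sub_eq_zero] at h2
    rw [h2, h1]
  have h1 := Submodule.finrank_mono hle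
  rw [LinearEquiv.finrank_map_eq] at h1
  have h2 : finrank F ↥S < finrank F ↥S' := Submodule.finrank_lt_finrank_of_lt
    (lt_of_le_not_ge le_sup_left fun h => hxv ((h (Submodule.mem_sup_right
      (Submodule.mem_span_singleton_self x))).2))
  have h3 := Nat.le_findGreatest (P := P) (hb0 g' w w hw)
    ⟨g', mul_mem (mul_mem (inv_mem hg) hT) hg, hg't, w, w, hw, hw, rfl⟩
  omega

end SData

end Cfsg.Agent.MaxSub.TensorMax
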