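import Cfsg.Agent.MaxSub.TensorMax.SympFix
import Cfsg.Agent.GeoClasses.OrthTotDecomp

/-!
An elation among the members gives the whole Eichler subgroup.
-/

set_option autoImplicit false

namespace Cfsg.Agent.MaxSub.TensorMax

open Module Matrix QuadraticMap Cfsg.Agent.MaxSub.ExtField Cfsg.Agent.Classical
open Cfsg.Agent.GeoClasses (siegelCentres EQ_le_of_siegel_pair commutator_eq_EQ)

variable {F : Type*} [Field F] {a b : ℕ}

namespace SData

variable (D : SData F a b)

lemma bNondeg : BNondeg D.Q := fun X hX => by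
  funext i
  refine D.hg.nd _ fun c => ?_
  rw [← D.g_eq]
  exact congrFun (D.hf.nd (rowMap (D.η c) X) fun u => by rw [← D.polar_col]; exact hX _) i

/-- The parameters of the Siegel transformations at `p` in `M`. -/
def par (M : Subgroup (OQ D.Q)) {p : Matrix (Fin a) (Fin b) F} (hp : D.Q p = 0) :
    AddSubgroup (Matrix (Fin a) (Fin b) F) where
  carrier := {y | ∃ hy : polar D.Q p y = 0, siegel D.Q hp hy ∈ M}
  zero_mem' := ⟨by simp, by
    convert one_mem M using 1
    ext v; simp⟩
  add_mem' := fun {x y} ⟨hx, hx'⟩ ⟨hy, hy'⟩ =>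
    ⟨by rw [polar_add_right, hx, hy, add_zero], by
      rw [← siegel_mul D.Q hp hx hy]; exact mul_mem hx' hy'⟩
  neg_mem' := fun {x} ⟨hx, hx'⟩ =>
    ⟨by rw [polar_neg_right, hx, neg_zero], by rw [← siegel_inv D.Q hp hx]; exact inv_mem hx'⟩

variable {D} {M : Subgroup (OQ D.Q)}

lemma map_mem_par {p y : Matrix (Fin a) (Fin b) F} {hp : D.Q p = 0} (hy : y ∈ D.par M hp)
    {m : OQ D.Q} (hm : m ∈ M) (hmp : m.1 p = p) : m.1 y ∈ D.par M hp := by
  obtain ⟨hy, hy'⟩ := hy
  have h0 : polar D.Q p (m.1 y) = 0 := by rw [← hmp, OQ_polar, hy]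
  refine ⟨h0, ?_⟩
  have h1 := mul_mem (mul_mem hm hy') (inv_mem hm)
  rw [siegel_conj] at h1
  convert h1 using 1
  exact siegel_congr D.Q _ _ _ _ hmp.symm rfl

variable (hG : D.Good (M.map (OQ D.Q).subtype)) (hb : 6 ≤ b)
include hG hb

lemma nset_elat_all {d : Fin a → F} (hd : d ≠ 0)
    (h : D.Nset (M.map (OQ D.Q).subtype) (elat D.f d)) (z : Fin a → F) :
    D.Nset (M.map (OQ D.Q).subtype) (elat D.f z) := by
  rcases eq_or_ne z 0 with rfl | hz
  · convert h.smul 0 using 1
    exact LinearMap.ext fun r => by simp [elat_apply]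
  refine D.hf.elat_transitive (P := fun z => D.Nset (M.map (OQ D.Q).subtype) (elat D.f z)) hd hz h
    fun c t x hx => ?_
  convert hx.conj hG c t using 1
  refine LinearMap.ext fun r => ?_
  simp [elat_apply, D.hf.skew x c]
  match_scalars <;> ring

lemma siegel_pair_mem {d : Fin a → F} (hd : d ≠ 0)
    (h : D.Nset (M.map (OQ D.Q).subtype) (elat D.f d)) (z : Fin a → F) {x y : Fin b → F}
    (hxy : D.Orth x y) (t : F) :
    t • colMap y z ∈ D.par M (D.pure x z) := by
  obtain ⟨N', hN', hmem⟩ := (nset_elat_all hG hb hd h z).smul t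
  have hN'' : ∀ s, N' s = -(t * D.f z s) • z := fun s => by
    refine sub_eq_zero.1 (D.hf.nd _ fun r => ?_)
    rw [D.hf.skew _ r, map_sub, ← hN']
    simp [elat_apply, D.hf.skew z r]
    ring
  have hp : polar D.Q (colMap x z) (t • colMap y z) = 0 := by
    rw [polar_smul_right, D.polar_col, row_col, hxy.2.2]; simp
  refine ⟨hp, ?_⟩
  obtain ⟨g, ⟨m, hm, rfl⟩, hmx⟩ := hmem x y hxy
  suffices hs : siegel D.Q (D.pure x z) hp = m by rw [hs]; exact hm
  apply Subtype.ext; apply LinearEquiv.ext; intro X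
  refine Eq.trans ?_ (hmx X).symm
  simp [q, cr_apply, hN'', elat_apply, polar_smul_left, polar_col', D.pure, QuadraticMap.map_smul,
    D.hf.skew (rowMap (D.η x) X) z, D.hf.skew (rowMap (D.η y) X) z]
  module

/-- Every pure tensor is a centre. -/
lemma pure_mem_centres {d : Fin a → F} (hd : d ≠ 0)
    (h : D.Nset (M.map (OQ D.Q).subtype) (elat D.f d)) {z : Fin a → F} (hz : z ≠ 0)
    {v : Fin b → F} (hv : v ≠ 0) : colMap v z ∈ siegelCentres D.Q M := by
  classical
  refine ⟨D.pure v z, fun X hX => ?_⟩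
  suffices hmem : X ∈ D.par M (D.pure v z) from hmem.2
  set A := D.par M (D.pure v z) with hA
  have hstart : ∀ e, D.Orth v e → ∀ t : F, colMap e (t • z) ∈ A := fun e he t => by
    simpa using siegel_pair_mem hG hb hd h z he t
  -- the movers
  have hmove : ∀ (u : Fin a → F) (v' e' : Fin b → F), D.Orth v' e' → D.f u z * D.g v' v = 0 →
      D.f u z * D.g e' v = 0 → ∀ (u' : Fin a → F) (e : Fin b → F), colMap e u' ∈ A →
      (D.f u' u * D.g e v') • colMap e' u - (D.f u' u * D.g e e') • colMap v' u ∈ A := by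
    intro u v' e' hve h1 h2 u' e hmem
    obtain ⟨hp, hm⟩ := siegel_pair_mem hG hb hd h u hve 1
    have h3 := map_mem_par hmem hm ?_
    · convert sub_mem h3 hmem using 1
      simp [polar_col', row_col, D.pure, D.polar_col, D.hg.skew v' e, D.hg.skew e' e,
        D.hf.skew u u']
      module
    · refine siegel_fix D.Q _ _ ?_ ?_
      · rw [D.polar_col, row_col, map_smul, LinearMap.smul_apply, smul_eq_mul]
        linear_combination h1
      · rw [one_smul, D.polar_col, row_col, map_smul, LinearMap.smul_apply, smul_eq_mul]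
        linear_combination h2
  -- the lines orthogonal to `v`
  have one : ∀ e', D.Orth v e' → ∀ u, D.f z u ≠ 0 → colMap e' u ∈ A := by
    intro e' he' u hu
    obtain ⟨v', hv', hperp⟩ := D.exists_perp_avoid ![v, e'] (Submodule.span F {v, e'})
      (by have := finrank_span_pair v e'; omega)
    have h1 : D.g v' v = 0 := hperp 0
    have h2 : D.g v' e' = 0 := hperp 1
    obtain ⟨e, hev', hesp⟩ := D.hg.exists_pair_sub hv'
    have h3 : D.g e v = 0 := hesp v (Submodule.subset_span (by simp))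
    have h4 : D.g e e' = 0 := hesp e' (Submodule.subset_span (by simp))
    have hve' : D.Orth v' e' := ⟨fun h0 => hv' (h0 ▸ zero_mem _), fun hm => by
      obtain ⟨r, hr⟩ := Submodule.mem_span_singleton.1 hm
      have hr0 : r ≠ 0 := fun h0 => he'.symm.1 (by rw [← hr, h0, zero_smul])
      exact hv' (by rw [← inv_smul_smul₀ hr0 v', hr]
                    exact Submodule.smul_mem _ _ (Submodule.subset_span (by simp))), h2⟩
    have hve : D.Orth v e := ⟨hv, fun hm => by
      obtain ⟨r, hr⟩ := Submodule.mem_span_singleton.1 hm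
      rw [← hr, map_smul, LinearMap.smul_apply, D.hg.skew, h1] at hev'
      simp at hev', by rw [D.hg.skew, h3, neg_zero]⟩
    have h5 := hmove u v' e' hve' (by rw [h1, mul_zero]) (by rw [he'.g_symm, mul_zero])
      ((D.f z u)⁻¹ • z) e (hstart e hve _)
    simpa [hev', h4, inv_mul_cancel₀ hu] using h5
  obtain ⟨y₁, hy₁⟩ : ∃ y, D.f z y ≠ 0 := by
    by_contra hc; push Not at hc; exact hz (D.hf.nd z hc)
  have two : ∀ e', D.Orth v e' → ∀ u, colMap e' u ∈ A := by
    intro e' he' u
    by_cases hu : D.f z u ≠ 0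
    · exact one e' he' u hu
    push Not at hu
    have h5 := sub_mem (one e' he' (u + y₁) (by rw [map_add, hu, zero_add]; exact hy₁))
      (one e' he' y₁ hy₁)
    rwa [map_add, add_sub_cancel_right] at h5
  have hperp : ∀ e', D.g e' v = 0 → ∀ u, colMap e' u ∈ A := by
    intro e' he' u
    have hve' : D.g v e' = 0 := by rw [D.hg.skew, he', neg_zero]
    by_cases hm : e' ∈ F ∙ v
    · obtain ⟨e₁, he₁, hperp⟩ := D.exists_perp_avoid ![v] (F ∙ v)
        (by rw [finrank_span_singleton hv]; omega)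
      have h1 : D.g e₁ v = 0 := hperp 0
      have h2 : D.g v e₁ = 0 := by rw [D.hg.skew, h1, neg_zero]
      have h5 := sub_mem (two (e' + e₁) ⟨hv, fun h' => he₁ ((Submodule.add_mem_iff_right _ hm).1 h'),
        by rw [map_add, hve', h2, add_zero]⟩ u) (two e₁ ⟨hv, he₁, h2⟩ u)
      rwa [col_add, add_sub_cancel_right] at h5
    · exact two e' ⟨hv, hm, hve'⟩ u
  -- the remaining lines
  have hrest : ∀ u, D.f u z = 0 → ∀ w, D.g w v ≠ 0 → colMap w u ∈ A := by
    intro u huz w hwv
    rcases eq_or_ne u 0 with rfl | hu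
    · rw [map_zero]; exact zero_mem _
    obtain ⟨u', hu'⟩ : ∃ u', D.f u' u ≠ 0 := by
      by_contra hc; push Not at hc
      exact hu (D.hf.nd u fun y => by rw [D.hf.skew, hc, neg_zero])
    obtain ⟨v', hv', hperp'⟩ := D.exists_perp_avoid ![w] (Submodule.span F {v, w})
      (by have := finrank_span_pair v w; omega)
    have h1 : D.g v' w = 0 := hperp' 0
    have hw0 : w ≠ 0 := fun h0 => hwv (by simp [h0])
    obtain ⟨e, hev', hesp⟩ := D.hg.exists_pair_sub hv'
    have h3 : D.g e v = 0 := hesp v (Submodule.subset_span (by simp))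
    have h4 : D.g e w = 0 := hesp w (Submodule.subset_span (by simp))
    have hve' : D.Orth v' w := ⟨fun h0 => hv' (h0 ▸ zero_mem _), fun hm => by
      obtain ⟨r, hr⟩ := Submodule.mem_span_singleton.1 hm
      have hr0 : r ≠ 0 := fun h0 => hw0 (by rw [← hr, h0, zero_smul])
      exact hv' (by rw [← inv_smul_smul₀ hr0 v', hr]
                    exact Submodule.smul_mem _ _ (Submodule.subset_span (by simp))), h1⟩
    have h5 := hmove u v' w hve' (by rw [huz, zero_mul]) (by rw [huz, zero_mul])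
      ((D.f u' u)⁻¹ • u') e (hperp e h3 _)
    simpa [hev', h4, inv_mul_cancel₀ hu'] using h5
  obtain ⟨v₀, hv₀⟩ : ∃ v₀, D.g v₀ v = 1 := by
    obtain ⟨y, hy⟩ : ∃ y, D.g y v ≠ 0 := by
      by_contra hc; push Not at hc
      exact hv (D.hg.nd v fun y => by rw [D.hg.skew, hc, neg_zero])
    exact ⟨(D.g y v)⁻¹ • y, by simp [hy]⟩
  have hXz : D.f (rowMap (D.η v) X) z = 0 := by rw [← polar_col', hX]
  have hdec : X = ∑ j, colMap (Pi.single j 1 - D.g (Pi.single j 1) v • v₀) (fun i => X i j) +
      colMap v₀ (rowMap (D.η v) X) := by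
    have e1 : ∀ (x : Fin b → F) (u : Fin a → F), colMap (x - D.g x v • v₀) u =
        colMap x u - colMap v₀ (rowMap (D.η v) (colMap x u)) := fun x u => by
      rw [row_col, map_smul, sub_eq_add_neg x, col_add, ← neg_smul, colMap_smul_right]
      module
    simp only [e1]
    rw [Finset.sum_sub_distrib, ← map_sum, ← map_sum, ← eq_sum_colMap, sub_add_cancel]
  rw [hdec]
  exact add_mem (sum_mem fun j _ => hperp _ (by simp [hv₀]) _)
    (hrest _ hXz _ (by rw [hv₀]; exact one_ne_zero))

/-- An elation gives everything. -/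
theorem commutator_le [Finite F] (ha : 2 ≤ a) {d : Fin a → F} (hd : d ≠ 0)
    (h : D.Nset (M.map (OQ D.Q).subtype) (elat D.f d)) : commutator (OQ D.Q) ≤ M := by
  classical
  have hn : 5 ≤ finrank F (Matrix (Fin a) (Fin b) F) := by
    rw [Module.finrank_matrix, Module.finrank_self, Fintype.card_fin, Fintype.card_fin]
    nlinarith
  rw [commutator_eq_EQ D.bNondeg hn]
  obtain ⟨v, hv, -⟩ := D.exists_perp_avoid (k := 0) ![] ⊥ (by rw [finrank_bot]; omega)
  have hv0 : v ≠ 0 := fun h => hv (by simp [h])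
  obtain ⟨v', hvv'⟩ : ∃ v', D.g v v' ≠ 0 := by
    by_contra hc; push Not at hc; exact hv0 (D.hg.nd v hc)
  obtain ⟨z', hdz'⟩ : ∃ z', D.f d z' ≠ 0 := by
    by_contra hc; push Not at hc; exact hd (D.hf.nd d hc)
  refine EQ_le_of_siegel_pair D.bNondeg hn (pure_mem_centres hG hb hd h hd hv0)
    (pure_mem_centres hG hb hd h (z := z') (v := v') (fun h0 => by simp [h0] at hdz')
      (fun h0 => by simp [h0] at hvv')) ?_
  rw [D.polar_col, row_col, map_smul, LinearMap.smul_apply, smul_eq_mul]
  refine mul_ne_zero ?_ ?_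
  · rw [D.hg.skew]; exact neg_ne_zero.2 hvv'
  · rw [D.hf.skew]; exact neg_ne_zero.2 hdz'

end SData

end Cfsg.Agent.MaxSub.TensorMax
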