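import Cfsg.Agent.MaxSub.TensorMax.Main
import Cfsg.Agent.MaxSub.TensorMax.SympAlt
import Cfsg.Agent.MaxSub.TensorMax.SympGen
import Cfsg.Agent.OrthMax.Proper

/-!
The stabiliser of a decomposition into two symplectic factors is maximal in `Ω⁺`.
-/

set_option autoImplicit false

namespace Cfsg.Agent.MaxSub.TensorMax

open Module Matrix QuadraticMap Cfsg.Agent.MaxSub.ExtField Cfsg.Geo Cfsg.Agent.Classical
open Cfsg.Agent.GeoClasses (toQF oqToGL oqToGL_mulVec map_oqToGL_commutator bNondeg_toQF
  siegel_singular_mem_commutator)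
open scoped Kronecker MatrixGroups

variable {F : Type*} [Field F] {a b : ℕ}

lemma form_eq_sum {k : ℕ} {f : (Fin k → F) → (Fin k → F) → F} (hf : IsBilinearForm f)
    (x y : Fin k → F) : f x y = ∑ i, ∑ j, x i * gramMatrix f i j * y j := by
  classical
  let B : (Fin k → F) →ₗ[F] (Fin k → F) →ₗ[F] F :=
    LinearMap.mk₂ F f hf.add_left hf.smul_left hf.add_right hf.smul_right
  have hs : ∀ v : Fin k → F, v = ∑ i, v i • (Pi.single i (1 : F) : Fin k → F) := fun v => by
    ext j; simp [Finset.sum_apply, Pi.single_apply]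
  show B x y = _
  conv_lhs => rw [hs x, hs y]
  simp only [map_sum, map_smul, LinearMap.sum_apply, LinearMap.smul_apply, smul_eq_mul,
    Finset.mul_sum]
  rw [Finset.sum_comm]
  refine Finset.sum_congr rfl fun i _ => Finset.sum_congr rfl fun j _ => ?_
  show _ * (_ * f _ _) = _
  rw [gramMatrix]
  ring

/-- An element acting as a tensor product lies in the decomposition group. -/
lemma mem_tensor_of_tens {ι : Type} [Fintype ι] [DecidableEq ι] (ha : 0 < a) (hb : 0 < b)
    (e : ι ≃ Fin a × Fin b) (P g : GL ι F) (h : Tens (toAct e P g)) :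
    g ∈ tensorProductSubgroup a b e P := by
  classical
  obtain ⟨A, B, hAB⟩ := h
  have hdA : A.det ≠ 0 := fun h0 => by
    obtain ⟨u, hu, hAu⟩ := Matrix.exists_mulVec_eq_zero_iff.2 h0
    obtain ⟨i, hi⟩ := Function.ne_iff.1 hu
    have h1 : toAct e P g (vecMulVec u (Pi.single ⟨0, hb⟩ 1)) = toAct e P g 0 := by
      rw [hAB, hAB, Matrix.mul_vecMulVec, hAu]
      simp [Matrix.zero_vecMulVec]
    have h2 := congrFun (congrFun ((toAct e P g).injective h1) i) ⟨0, hb⟩
    exact hi (by simpa [vecMulVec_apply] using h2)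
  have hdB : B.det ≠ 0 := fun h0 => by
    obtain ⟨u, hu, hBu⟩ := Matrix.exists_vecMul_eq_zero_iff.2 h0
    obtain ⟨i, hi⟩ := Function.ne_iff.1 hu
    have h1 : toAct e P g (vecMulVec (Pi.single ⟨0, ha⟩ 1) u) = toAct e P g 0 := by
      rw [hAB, hAB, Matrix.mul_assoc, Matrix.vecMulVec_mul, hBu]
      ext i j
      simp [Matrix.mul_apply, vecMulVec_apply]
    have h2 := congrFun (congrFun ((toAct e P g).injective h1) ⟨0, ha⟩) i
    exact hi (by simpa [vecMulVec_apply] using h2)
  have hge : g = tensorElt e P (Matrix.GeneralLinearGroup.mkOfDetNeZero A hdA)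
      (Matrix.GeneralLinearGroup.mkOfDetNeZero Bᵀ (by rwa [Matrix.det_transpose])) :=
    toAct_injective e P (LinearEquiv.ext fun X => by
      rw [toAct_tensorElt, hAB]
      exact congrArg (A * X * ·) (Matrix.transpose_transpose B).symm)
  rw [hge]
  exact tensorElt_mem e P _ _

namespace SData

variable [Finite F] (D : SData F a b) (hn : 5 ≤ a * b)
include hn

omit [Finite F] in
lemma five_le_finrank : 5 ≤ finrank F (Matrix (Fin a) (Fin b) F) := by
  rw [Module.finrank_matrix, Module.finrank_self, Fintype.card_fin, Fintype.card_fin]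
  omega

/-- Transvections of the second factor. -/
lemma right_mem_commutator (c : Fin b → F) (t : F) :
    ∃ k ∈ commutator (OQ D.Q), ∀ X, k.1 X = X + t • cr D c c LinearMap.id X := by
  have key := D.hf.skew_induction
    (P := fun Y => ∃ k ∈ commutator (OQ D.Q), ∀ X, k.1 X = X + cr D c c Y X)
    ⟨1, one_mem _, fun X => by simp [cr_apply]⟩ (fun p q Y hY => ?_) (t • LinearMap.id)
    (fun r => by simp [D.hf.alt])
  · obtain ⟨k, hk, hkX⟩ := key
    exact ⟨k, hk, fun X => by rw [hkX]; simp [cr_apply]⟩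
  obtain ⟨k, hk, hkX⟩ := hY
  have hpq : polar D.Q (colMap c p) (colMap c q) = 0 := by
    rw [D.polar_col, row_col, D.hg.alt]; simp
  refine ⟨_, mul_mem (siegel_singular_mem_commutator D.bNondeg (five_le_finrank hn) (D.pure c p)
    hpq (D.pure c q)) hk, fun X => ?_⟩
  show (siegel D.Q (D.pure c p) hpq).1 (k.1 X) = _
  rw [hkX, siegel_apply]
  simp [cr_apply, wedge_apply, polar_col', D.pure, row_col, D.hg.alt]
  module

/-- Transvections of the first factor. -/
lemma left_mem_commutator (z : Fin a → F) (t : F) :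
    ∃ k ∈ commutator (OQ D.Q), ∀ X, k.1 X = X + t • leftMap (b := b) (elat D.f z) X := by
  classical
  set ψ : Fin a → F := fun i => D.f (Pi.single i 1) z with hψ
  have hψu : ∀ u, ψ ⬝ᵥ u = D.f u z := fun u => by
    have hs : u = ∑ i, u i • (Pi.single i (1 : F) : Fin a → F) := by
      ext j; simp [Finset.sum_apply, Pi.single_apply]
    conv_rhs => rw [hs]
    simp [dotProduct, hψ, mul_comm]
  have hζ : ∀ X y, D.g (ψ ᵥ* X) y = D.f (rowMap (D.η y) X) z := fun X y => by
    rw [← D.g_eq, ← dotProduct_mulVec, hψu]; rfl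
  have key := D.hg.skew_induction
    (P := fun R => ∃ k ∈ commutator (OQ D.Q), ∀ X, k.1 X = X + colMap (R (ψ ᵥ* X)) z)
    ⟨1, one_mem _, fun X => by ext i j; simp [colMap_apply, vecMulVec_apply]⟩
    (fun p q R hR => ?_) ((-t) • LinearMap.id) (fun r => by simp [D.hg.alt])
  · obtain ⟨k, hk, hkX⟩ := key
    refine ⟨k, hk, fun X => ?_⟩
    rw [hkX]
    congr 1
    refine ext_colMap (φ := { toFun := fun X => colMap (((-t) • LinearMap.id) (ψ ᵥ* X)) z
                              map_add' := fun X Y => by rw [Matrix.vecMul_add, map_add, SData.col_add]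
                              map_smul' := fun r X => by
                                rw [Matrix.vecMul_smul, map_smul, colMap_smul_right, RingHom.id_apply] })
      (ψ := t • leftMap (elat D.f z)) (fun w u => ?_) X
    show colMap _ z = _
    rw [colMap_apply (v := w), Matrix.vecMul_vecMulVec, ← colMap_apply, hψu]
    simp [leftMap_colMap, elat_apply, colMap_smul_right, D.hf.skew u z, smul_smul]
  obtain ⟨k, hk, hkX⟩ := hR
  have hpq : polar D.Q (colMap p z) (colMap q z) = 0 := by
    rw [D.polar_col, row_col]; simp [D.hf.alt]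
  refine ⟨_, mul_mem (siegel_singular_mem_commutator D.bNondeg (five_le_finrank hn) (D.pure p z)
    hpq (D.pure q z)) hk, fun X => ?_⟩
  show (siegel D.Q (D.pure p z) hpq).1 (k.1 X) = _
  rw [hkX, siegel_apply]
  simp [wedge_apply, polar_col', D.pure, row_col, D.hf.alt, hζ, map_add, col_add,
    sub_eq_add_neg, colMap_smul_right]
  simp only [← neg_smul, colMap_smul_right]
  module

end SData

/-- The stabilisers of symplectic tensor decompositions are maximal in `Ω`. -/
theorem sympTensor_maximal [Finite F] {ι : Type} [Fintype ι] [DecidableEq ι] (ha : 2 ≤ a)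
    (hab : a + 2 ≤ b) (hb : 6 ≤ b) (hbig : (∃ t : F, t ≠ 0 ∧ t ≠ 1) ∨ 3 ≤ a)
    {Q : (ι → F) → F} (hQ : IsNondegenerateQuadraticForm Q) (e : ι ≃ Fin a × Fin b) (P : GL ι F)
    (f₁ : (Fin a → F) → (Fin a → F) → F) (f₂ : (Fin b → F) → (Fin b → F) → F)
    (hf₁ : IsSymplecticForm f₁) (hf₂ : IsSymplecticForm f₂)
    (hT : IsTensorFormStructure id (QuadraticMap.polar Q) f₁ f₂ e P)
    (hpure : ∀ (x₁ : Fin a → F) (x₂ : Fin b → F),
      Q ((P : Matrix ι ι F) *ᵥ ((fun p : Fin a × Fin b => x₁ p.1 * x₂ p.2) ∘ e)) = 0) :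
    IsMaximalIn (omegaGL Q) (tensorProductSubgroup a b e P ⊓ omegaGL Q) := by
  classical
  obtain ⟨c, hc, hT⟩ := hT
  set S := toMat (a := a) (b := b) e P with hS
  set Qf := toQF hQ with hQf
  let Qm : QuadraticForm F (Matrix (Fin a) (Fin b) F) := Qf.comp S.symm.toLinearMap
  let D : SData F a b :=
    { f := c • LinearMap.mk₂ F f₁ hf₁.bilinear.add_left hf₁.bilinear.smul_left
        hf₁.bilinear.add_right hf₁.bilinear.smul_right
      g := LinearMap.mk₂ F f₂ hf₂.bilinear.add_left hf₂.bilinear.smul_left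
        hf₂.bilinear.add_right hf₂.bilinear.smul_right
      η := (gramMatrix f₂).mulVecLin
      Q := Qm
      hf :=
        { alt := fun u => by simp [hf₁.alternating]
          nd := fun u hu => by
            by_contra h0
            obtain ⟨-, y, hy⟩ := hf₁.nondegenerate u h0
            exact hy (by simpa [hc] using hu y) }
      hg :=
        { alt := fun u => by simp [hf₂.alternating]
          nd := fun u hu => by
            by_contra h0
            obtain ⟨-, y, hy⟩ := hf₂.nondegenerate u h0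
            exact hy (by simpa using hu y) }
      g_eq := fun v w => by
        show v ⬝ᵥ gramMatrix f₂ *ᵥ w = f₂ v w
        rw [form_eq_sum hf₂.bilinear]
        simp only [dotProduct, Matrix.mulVec, Finset.mul_sum, mul_assoc]
      polar_col := fun X w u => by
        show _ = c • f₁ (X *ᵥ (gramMatrix f₂ *ᵥ w)) u
        have h1 : polar Qm X (colMap w u) = polar Q
            ((P : Matrix ι ι F) *ᵥ ((fun p : Fin a × Fin b => X p.1 p.2) ∘ e))
            ((P : Matrix ι ι F) *ᵥ ((fun p : Fin a × Fin b => u p.1 * w p.2) ∘ e)) := by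
          simp only [polar, Qm, QuadraticMap.comp_apply, LinearEquiv.coe_coe, map_add]
          rfl
        rw [h1, hT, form_eq_sum hf₁.bilinear, smul_eq_mul]
        congr 1
        simp only [formOfGram, Fintype.sum_prod_type, Matrix.kroneckerMap_apply, Matrix.mulVec,
          dotProduct, id_eq, Finset.sum_mul, Finset.mul_sum]
        refine Finset.sum_congr rfl fun i _ => ?_
        rw [Finset.sum_comm]
        refine Finset.sum_congr rfl fun k _ => Finset.sum_congr rfl fun j _ =>
          Finset.sum_congr rfl fun l _ => ?_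
        ring
      pure := fun w u => hpure u w }
  have hab5 : 5 ≤ a * b := by nlinarith
  let Φ : OQ D.Q ≃* OQ Qf := OQCongr S.symm fun X => rfl
  let j : OQ D.Q →* GL ι F := (oqToGL Qf).comp Φ.toMonoidHom
  have hj : ∀ k, toAct e P (j k) = k.1 := fun k => LinearEquiv.ext fun X => by
    rw [toAct_apply]
    show S ((oqToGL Qf (Φ k) : Matrix ι ι F) *ᵥ S.symm X) = _
    rw [oqToGL_mulVec]
    show S (S.symm (k.1 (S (S.symm X)))) = _
    rw [LinearEquiv.apply_symm_apply, LinearEquiv.apply_symm_apply]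
  have hΩ : (commutator (OQ D.Q)).map j = omegaGL Q := by
    rw [← Subgroup.map_map, map_commutator_top_of_equiv Φ, map_oqToGL_commutator, hQf,
      GeoClasses.coe_toQF]
  have hcardι : 5 ≤ Fintype.card ι := by
    rw [Fintype.card_congr e, Fintype.card_prod, Fintype.card_fin, Fintype.card_fin]; exact hab5
  refine ⟨lt_of_le_not_ge inf_le_right fun hle => ?_, fun M hM hMΩ => ?_⟩
  · refine OrthMax.omega_not_le_tensorProductSubgroup (Q := Qf) (bNondeg_toQF hQ) hcardι ha
      (by omega) e P ?_
    rw [hQf, GeoClasses.coe_toQF]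
    exact hle.trans inf_le_left
  have hmem : ∀ {f : Matrix (Fin a) (Fin b) F →ₗ[F] Matrix (Fin a) (Fin b) F}
      (k : OQ D.Q), k ∈ commutator (OQ D.Q) → Tens k.1 → (∀ X, k.1 X = X + f X) →
      Mem ((M.comap j).map (OQ D.Q).subtype) f := fun k hk ht hx =>
    ⟨k.1, ⟨k, hM ⟨mem_tensor_of_tens (by omega) (by omega) e P _ (by rw [hj]; exact ht),
      by rw [← hΩ]; exact ⟨k, hk, rfl⟩⟩, rfl⟩, hx⟩
  have hG : D.Good ((M.comap j).map (OQ D.Q).subtype) := by
    refine ⟨?_, fun z t => ?_, fun c t => ?_⟩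
    · rintro _ ⟨k, -, rfl⟩ X
      exact k.2 X
    · obtain ⟨k, hk, hx⟩ := D.left_mem_commutator hab5 z t
      refine hmem k hk ⟨1 + t • LinearMap.toMatrix' (elat D.f z), 1, fun X => ?_⟩ hx
      rw [hx, Matrix.mul_one, Matrix.add_mul, Matrix.one_mul, Matrix.smul_mul]
      rfl
    · obtain ⟨k, hk, hx⟩ := D.right_mem_commutator hab5 c t
      refine hmem k hk ⟨1, 1 + t • vecMulVec (D.η c) c, fun X => ?_⟩ hx
      rw [hx, Matrix.one_mul, Matrix.mul_add, Matrix.mul_one, Matrix.mul_smul, mul_vecMulVec]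
      rfl
  rcases D.alternative hG ha hab hb hbig with hall | ⟨d, hd, hN⟩
  · refine Or.inl (le_antisymm (fun m hm => ?_) hM)
    refine ⟨?_, hMΩ hm⟩
    obtain ⟨k, -, rfl⟩ : m ∈ (commutator (OQ D.Q)).map j := hΩ ▸ hMΩ hm
    exact mem_tensor_of_tens (by omega) (by omega) e P _ (by
      rw [hj]; exact hall _ ⟨k, hm, rfl⟩)
  · refine Or.inr (le_antisymm hMΩ ?_)
    rw [← hΩ, Subgroup.map_le_iff_le_comap]
    exact D.commutator_le hG hb ha hd hN

end Cfsg.Agent.MaxSub.TensorMax
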