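import Cfsg.Agent.MaxSub.ExtField.Basic

/-!
Groups containing `SL(U) ⊗ SL(W)` acting on `U ⊗ W`, written as a space of matrices: the
parameter sets of root elements at a line `U ⊗ v`.
-/

set_option autoImplicit false

namespace Cfsg.Agent.MaxSub.TensorMax

open Module Matrix Cfsg.Agent.MaxSub.ExtField

variable {F : Type*} [Field F] {a b : ℕ}

/-- `u ↦ u ⊗ v`. -/
def colMap (v : Fin b → F) : (Fin a → F) →ₗ[F] Matrix (Fin a) (Fin b) F where
  toFun u := vecMulVec u v
  map_add' x y := add_vecMulVec x y v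
  map_smul' c x := smul_vecMulVec c x v

/-- Contraction with a functional on the second factor. -/
def rowMap (η : Fin b → F) : Matrix (Fin a) (Fin b) F →ₗ[F] (Fin a → F) where
  toFun X := X *ᵥ η
  map_add' X Y := add_mulVec X Y η
  map_smul' c X := smul_mulVec c X η

/-- A linear map acting on the first factor. -/
def leftMap (f : (Fin a → F) →ₗ[F] (Fin a → F)) :
    Matrix (Fin a) (Fin b) F →ₗ[F] Matrix (Fin a) (Fin b) F where
  toFun X := LinearMap.toMatrix' f * X
  map_add' X Y := Matrix.mul_add _ X Y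
  map_smul' c X := Matrix.mul_smul _ c X

/-- The line of `v`. -/
def line (v : Fin b → F) : Submodule F (Matrix (Fin a) (Fin b) F) := LinearMap.range (colMap v)

/-- An elation with centre line `v`. -/
abbrev rootMap (Y : (Fin a → F) →ₗ[F] (Fin a → F)) (η : Fin b → F) (v : Fin b → F) :
    Matrix (Fin a) (Fin b) F →ₗ[F] Matrix (Fin a) (Fin b) F :=
  colMap v ∘ₗ Y ∘ₗ rowMap η

lemma colMap_apply (v : Fin b → F) (u : Fin a → F) : colMap v u = vecMulVec u v := rfl

lemma rowMap_apply (η : Fin b → F) (X : Matrix (Fin a) (Fin b) F) : rowMap η X = X *ᵥ η := rfl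

lemma rowMap_colMap (η v : Fin b → F) (u : Fin a → F) :
    rowMap η (colMap v u) = (v ⬝ᵥ η) • u := by
  rw [colMap_apply, rowMap_apply, vecMulVec_mulVec, op_smul_eq_smul]

lemma rowMap_add (η η' : Fin b → F) (X : Matrix (Fin a) (Fin b) F) :
    rowMap (η + η') X = rowMap η X + rowMap η' X :=
  mulVec_add X η η'

lemma rowMap_smul (c : F) (η : Fin b → F) (X : Matrix (Fin a) (Fin b) F) :
    rowMap (c • η) X = c • rowMap η X :=
  mulVec_smul X c η

lemma rowMap_leftMap (η : Fin b → F) (f : (Fin a → F) →ₗ[F] (Fin a → F))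
    (X : Matrix (Fin a) (Fin b) F) : rowMap η (leftMap f X) = f (rowMap η X) := by
  show (LinearMap.toMatrix' f * X) *ᵥ η = f (X *ᵥ η)
  rw [← mulVec_mulVec, LinearMap.toMatrix'_mulVec]

lemma leftMap_colMap (f : (Fin a → F) →ₗ[F] (Fin a → F)) (v : Fin b → F) (u : Fin a → F) :
    leftMap f (colMap v u) = colMap v (f u) := by
  show LinearMap.toMatrix' f * vecMulVec u v = vecMulVec (f u) v
  rw [mul_vecMulVec, LinearMap.toMatrix'_mulVec]

lemma leftMap_leftMap (f g : (Fin a → F) →ₗ[F] (Fin a → F)) (X : Matrix (Fin a) (Fin b) F) :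
    leftMap f (leftMap g X) = leftMap (f ∘ₗ g) X := by
  show LinearMap.toMatrix' f * (LinearMap.toMatrix' g * X) = LinearMap.toMatrix' (f ∘ₗ g) * X
  rw [LinearMap.toMatrix'_comp, Matrix.mul_assoc]

lemma rowMap_single (X : Matrix (Fin a) (Fin b) F) (j : Fin b) :
    rowMap (Pi.single j 1) X = fun i => X i j := by
  funext i; simp [rowMap_apply]

lemma colMap_injective {v : Fin b → F} (hv : v ≠ 0) :
    Function.Injective (colMap (a := a) v) := by
  obtain ⟨j, hj⟩ := Function.ne_iff.1 hv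
  intro x y h
  funext i
  exact mul_right_cancel₀ hj (congrFun (congrFun h i) j)

lemma colMap_smul_right (v : Fin b → F) (c : F) (u : Fin a → F) :
    colMap (c • v) u = c • colMap v u := vecMulVec_smul c u v

lemma mem_line {v : Fin b → F} {X : Matrix (Fin a) (Fin b) F} :
    X ∈ line v ↔ ∃ u, colMap v u = X := Iff.rfl

lemma finrank_line {v : Fin b → F} (hv : v ≠ 0) : finrank F (line (a := a) v) = a := by
  rw [line, LinearMap.finrank_range_of_inj (colMap_injective hv), finrank_fin_fun]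

lemma exists_dot_eq_one {v : Fin b → F} (hv : v ≠ 0) : ∃ η : Fin b → F, v ⬝ᵥ η = 1 := by
  obtain ⟨j, hj⟩ := Function.ne_iff.1 hv
  exact ⟨Pi.single j (v j)⁻¹, by rw [dotProduct_single]; exact mul_inv_cancel₀ hj⟩

/-- Two lines meeting non-trivially coincide. -/
lemma line_eq_of_mem {v v' : Fin b → F} {X : Matrix (Fin a) (Fin b) F} (h : X ∈ line v)
    (h' : X ∈ line v') (hX : X ≠ 0) : line (a := a) v = line v' := by
  obtain ⟨u, rfl⟩ := h
  obtain ⟨u', hu'⟩ := h'
  have hu : u ≠ 0 := fun h0 => hX (by rw [h0, map_zero])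
  obtain ⟨i, hi⟩ := Function.ne_iff.1 hu
  have hrow : ∀ j, u' i * v' j = u i * v j := fun j => congrFun (congrFun hu' i) j
  have hv : v = ((u i)⁻¹ * u' i) • v' := by
    funext j
    rw [Pi.smul_apply, smul_eq_mul, mul_assoc, hrow, inv_mul_cancel_left₀ hi]
  have hc : (u i)⁻¹ * u' i ≠ 0 := fun h0 => hX (by
    rw [hv, h0, zero_smul]; ext i j; simp [colMap_apply, vecMulVec_apply])
  ext X
  constructor
  · rintro ⟨x, rfl⟩
    exact ⟨((u i)⁻¹ * u' i) • x, by rw [map_smul, hv, colMap_smul_right]⟩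
  · rintro ⟨x, rfl⟩
    exact ⟨((u i)⁻¹ * u' i)⁻¹ • x, by
      rw [map_smul, hv, colMap_smul_right, inv_smul_smul₀ hc]⟩

/-- `G` contains the transvections of the two factors. -/
structure Factors (G : Subgroup (Matrix (Fin a) (Fin b) F ≃ₗ[F] Matrix (Fin a) (Fin b) F)) :
    Prop where
  left : ∀ (g : (Fin a → F) →ₗ[F] F) (u : Fin a → F), g u = 0 → Mem G (leftMap (g.smulRight u))
  right : ∀ η w : Fin b → F, w ⬝ᵥ η = 0 → Mem G (colMap w ∘ₗ rowMap η)

variable {G : Subgroup (Matrix (Fin a) (Fin b) F ≃ₗ[F] Matrix (Fin a) (Fin b) F)}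

/-- The first-factor parts of the root elements at the line of `v`. -/
def Params (G : Subgroup (Matrix (Fin a) (Fin b) F ≃ₗ[F] Matrix (Fin a) (Fin b) F))
    (v : Fin b → F) (Y : (Fin a → F) →ₗ[F] (Fin a → F)) : Prop :=
  ∀ η, v ⬝ᵥ η = 0 → Mem G (rootMap Y η v)

lemma rootMap_sq {v η : Fin b → F} (h : v ⬝ᵥ η = 0) (Y Y' : (Fin a → F) →ₗ[F] (Fin a → F))
    (η' : Fin b → F) (X : Matrix (Fin a) (Fin b) F) :
    rootMap Y η v (rootMap Y' η' v X) = 0 := by
  simp [rowMap_colMap, h]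

lemma Params.add {v : Fin b → F} {Y Y' : (Fin a → F) →ₗ[F] (Fin a → F)} (h : Params G v Y)
    (h' : Params G v Y') : Params G v (Y + Y') := fun η hη =>
  ((h η hη).add (h' η hη) fun X => rootMap_sq hη _ _ _ X).congr fun X => by simp [map_add]

lemma Params.smul {v : Fin b → F} {Y : (Fin a → F) →ₗ[F] (Fin a → F)} (h : Params G v Y) (c : F) :
    Params G v (c • Y) := fun η hη =>
  (h (c • η) (by rw [dotProduct_smul, hη, smul_zero])).congr fun X => by
    simp [rowMap_smul, map_smul]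

lemma Params.sub {v : Fin b → F} {Y Y' : (Fin a → F) →ₗ[F] (Fin a → F)} (h : Params G v Y)
    (h' : Params G v Y') : Params G v (Y - Y') := by
  rw [sub_eq_add_neg, ← neg_one_smul F Y']
  exact h.add (h'.smul _)

/-- Conjugation by an element `1 + N` with `N² = 0`. -/
lemma mem_conj {f N : Matrix (Fin a) (Fin b) F →ₗ[F] Matrix (Fin a) (Fin b) F} (hf : Mem G f)
    (hN : Mem G N) (hN2 : ∀ X, N (N X) = 0) :
    Mem G ((LinearMap.id + N) ∘ₗ f ∘ₗ (LinearMap.id - N)) := by
  obtain ⟨h, hh, hx⟩ := hN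
  refine (hf.conj hh).congr fun X => ?_
  have hi : h⁻¹ X = X - N X := h.injective (by
    rw [self_inv_apply, hx, map_sub, hN2, sub_zero, sub_add_cancel])
  show h (f (h⁻¹ X)) = _
  rw [hi, hx]
  simp

variable (hG : Factors G)
include hG

lemma Params.conj {v : Fin b → F} {Y : (Fin a → F) →ₗ[F] (Fin a → F)} (h : Params G v Y)
    {g : (Fin a → F) →ₗ[F] F} {z : Fin a → F} (hgz : g z = 0) :
    Params G v ((LinearMap.id + g.smulRight z) ∘ₗ Y ∘ₗ (LinearMap.id - g.smulRight z)) :=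
  fun η hη => (mem_conj (h η hη) (hG.left g z hgz) fun X => by
    rw [leftMap_leftMap, show g.smulRight z ∘ₗ g.smulRight z = 0 from
      LinearMap.ext fun x => by simp [hgz]]
    simp [leftMap]).congr fun X => by
      simp [rowMap_leftMap, leftMap_colMap, map_add, map_sub]

/-- Right transvections change the functional. -/
lemma mem_rootMap_step {v η η' : Fin b → F} {Y : (Fin a → F) →ₗ[F] (Fin a → F)}
    (h : Mem G (rootMap Y η v)) (hv : v ⬝ᵥ η = 0) (hv' : v ⬝ᵥ η' = 0) {w : Fin b → F}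
    (hw : w ⬝ᵥ η = 1) (hw' : w ⬝ᵥ η' = 0) : Mem G (rootMap Y η' v) := by
  have h1 := mem_conj h (hG.right η' w hw') fun X => by simp [rowMap_colMap, hw']
  have h1' : Mem G (rootMap Y η v - rootMap Y η' v) := h1.congr fun X => by
    simp [rowMap_colMap, hw, hv', map_sub]
  have h2 : Mem G (-(rootMap Y η v - rootMap Y η' v)) := h1'.neg fun X => by
    simp [rowMap_colMap, hv, hv', map_sub]
  exact (h.add h2 fun X => by simp [rowMap_colMap, hv, map_sub]).congr fun X => by simp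

omit hG in
lemma exists_dot_pair {η η' : Fin b → F} (hη' : η' ≠ 0) (hne : η ∉ F ∙ η') :
    ∃ w : Fin b → F, w ⬝ᵥ η = 1 ∧ w ⬝ᵥ η' = 0 := by
  obtain ⟨j, hj⟩ := Function.ne_iff.1 hη'
  have hj' : η' j ≠ 0 := hj
  set ρ := η - (η j / η' j) • η' with hρ
  have hρ0 : ρ ≠ 0 := fun h => hne (by
    rw [hρ, sub_eq_zero] at h
    exact Submodule.mem_span_singleton.2 ⟨_, h.symm⟩)
  obtain ⟨k, hk⟩ := Function.ne_iff.1 hρ0
  have hk' : ρ k ≠ 0 := hk
  refine ⟨(ρ k)⁻¹ • (Pi.single k 1 - (η' k / η' j) • Pi.single j 1), ?_, ?_⟩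
  · rw [smul_dotProduct, sub_dotProduct, smul_dotProduct, single_dotProduct, single_dotProduct]
    simp only [hρ, Pi.sub_apply, Pi.smul_apply, smul_eq_mul] at hk' ⊢
    convert inv_mul_cancel₀ hk' using 2
    ring
  · rw [smul_dotProduct, sub_dotProduct, smul_dotProduct, single_dotProduct, single_dotProduct]
    simp only [smul_eq_mul]
    field_simp
    ring

omit hG in
lemma exists_perp_not_mem {v : Fin b → F} (hb : 3 ≤ b) (η : Fin b → F) :
    ∃ η' : Fin b → F, v ⬝ᵥ η' = 0 ∧ η' ∉ F ∙ η := by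
  let φ : (Fin b → F) →ₗ[F] F := dotProductBilin F F v
  by_contra hc
  push Not at hc
  have h1 : LinearMap.ker φ ≤ F ∙ η := fun x hx => hc x hx
  have h2 := LinearMap.finrank_range_add_finrank_ker φ
  have h3 : finrank F (LinearMap.range φ) ≤ 1 :=
    (Submodule.finrank_le _).trans (by rw [Module.finrank_self])
  have h4 := Submodule.finrank_mono h1
  have h5 : finrank F (F ∙ η) ≤ 1 := by
    rcases eq_or_ne η 0 with rfl | h
    · rw [Submodule.span_zero_singleton, finrank_bot]; omega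
    · rw [finrank_span_singleton h]
  rw [finrank_fin_fun] at h2
  omega

lemma params_of_one (hb : 3 ≤ b) {v η₀ : Fin b → F} {Y : (Fin a → F) →ₗ[F] (Fin a → F)}
    (hv : v ⬝ᵥ η₀ = 0) (hη₀ : η₀ ≠ 0) (h : Mem G (rootMap Y η₀ v)) : Params G v Y := by
  intro η hη
  rcases eq_or_ne η 0 with rfl | hη0
  · exact mem_zero.congr fun X => by simp [rowMap_apply]
  obtain ⟨η₁, hη₁, hne⟩ := exists_perp_not_mem (v := v) hb η₀
  have hη₁0 : η₁ ≠ 0 := fun h0 => hne (h0 ▸ zero_mem _)
  have key : ∀ {η η' : Fin b → F}, η' ≠ 0 → η ∉ F ∙ η' → v ⬝ᵥ η = 0 → v ⬝ᵥ η' = 0 →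
      Mem G (rootMap Y η v) → Mem G (rootMap Y η' v) := fun h0 hn h1 h2 hm => by
    obtain ⟨w, hw, hw'⟩ := exists_dot_pair h0 hn
    exact mem_rootMap_step hG hm h1 h2 hw hw'
  by_cases hin : η₀ ∈ F ∙ η
  · have h1 : η₁ ∉ F ∙ η := fun hm => hne (by
      obtain ⟨s, hs⟩ := Submodule.mem_span_singleton.1 hin
      obtain ⟨t, ht⟩ := Submodule.mem_span_singleton.1 hm
      have hs0 : s ≠ 0 := fun h0 => hη₀ (by rw [← hs, h0, zero_smul])
      exact Submodule.mem_span_singleton.2 ⟨t / s, by rw [← hs, ← ht, smul_smul, div_mul_cancel₀ _ hs0]⟩)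
    refine key hη0 h1 hη₁ hη (key hη₁0 (fun hm => hne ?_) hv hη₁ h)
    obtain ⟨t, ht⟩ := Submodule.mem_span_singleton.1 hm
    have ht0 : t ≠ 0 := fun h0 => hη₀ (by rw [← ht, h0, zero_smul])
    exact Submodule.mem_span_singleton.2 ⟨t⁻¹, by rw [← ht, inv_smul_smul₀ ht0]⟩
  · exact key hη0 hin hv hη h

end Cfsg.Agent.MaxSub.TensorMax
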