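import Cfsg.Agent.MaxSub.TensorMax.Basic

/-!
A non-scalar parameter gives all the rank-one parameters, hence all transvections.
-/

set_option autoImplicit false

namespace Cfsg.Agent.MaxSub.TensorMax

open Module Matrix Cfsg.Agent.MaxSub.ExtField

variable {F : Type*} [Field F] {a b : ℕ}
  {G : Subgroup (Matrix (Fin a) (Fin b) F ≃ₗ[F] Matrix (Fin a) (Fin b) F)}

/-- A linear map with all vectors as eigenvectors is a scalar. -/
lemma eq_smul_id (Y : (Fin a → F) →ₗ[F] (Fin a → F)) (h : ∀ z, ∃ c : F, Y z = c • z) :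
    ∃ c : F, Y = c • LinearMap.id := by
  choose c hc using h
  rcases isEmpty_or_nonempty (Fin a) with he | ⟨⟨i₀⟩⟩
  · exact ⟨0, LinearMap.ext fun z => funext fun i => he.elim i⟩
  set e : Fin a → (Fin a → F) := fun i => Pi.single i 1 with he
  refine ⟨c (e i₀), (Pi.basisFun F (Fin a)).ext fun i => ?_⟩
  rw [Pi.basisFun_apply, LinearMap.smul_apply, LinearMap.id_apply]
  show Y (e i) = c (e i₀) • e i
  rcases eq_or_ne i i₀ with rfl | hi
  · exact hc _
  have h1 := hc (e i + e i₀)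
  rw [map_add, hc, hc] at h1
  have h2 := congrFun h1 i
  have h3 := congrFun h1 i₀
  simp [he, hi, Ne.symm hi] at h2 h3
  rw [hc, h2, h3]

/-- Two dual vectors. -/
lemma exists_dual_vectors {x y : Fin a → F} (hx : x ≠ 0) (hy : y ∉ F ∙ x) :
    ∃ g : (Fin a → F) →ₗ[F] F, g x = 0 ∧ g y = 1 := by
  obtain ⟨g, hg, hg0⟩ := Submodule.exists_dual_map_eq_bot_of_notMem hy inferInstance
  refine ⟨(g y)⁻¹ • g, ?_, by simp [hg]⟩
  have : g x = 0 := (Submodule.eq_bot_iff _).1 hg0 _ ⟨x, Submodule.mem_span_singleton_self x, rfl⟩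
  simp [this]

/-- A rank-one map with zero trace. -/
def IsRootParam (G : Subgroup (Matrix (Fin a) (Fin b) F ≃ₗ[F] Matrix (Fin a) (Fin b) F))
    (v : Fin b → F) : Prop :=
  ∃ (f : (Fin a → F) →ₗ[F] F) (u : Fin a → F), u ≠ 0 ∧ f ≠ 0 ∧ f u = 0 ∧ Params G v (f.smulRight u)

/-- A non-scalar map whose differences under transvections are parameters. -/
lemma isRootParam_of_diff {v : Fin b → F} {Y : (Fin a → F) →ₗ[F] (Fin a → F)}
    (hY : ∀ c : F, Y ≠ c • LinearMap.id) (hbig : (∃ t : F, t ≠ 0 ∧ t ≠ 1) ∨ 3 ≤ a)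
    (hdiff : ∀ (g : (Fin a → F) →ₗ[F] F) (z : Fin a → F), g z = 0 →
      Params G v ((LinearMap.id + g.smulRight z) ∘ₗ Y ∘ₗ (LinearMap.id - g.smulRight z) - Y)) :
    IsRootParam G v := by
  obtain ⟨z, hz⟩ : ∃ z, ∀ c : F, Y z ≠ c • z := by
    by_contra hc
    push Not at hc
    obtain ⟨c, hc'⟩ := eq_smul_id Y hc
    exact hY c hc'
  have hz0 : z ≠ 0 := fun h => hz 0 (by simp [h])
  have hYz : Y z ∉ F ∙ z := fun h => by
    obtain ⟨c, hc⟩ := Submodule.mem_span_singleton.1 h
    exact hz c hc.symm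
  obtain ⟨g, hgz, hgY⟩ := exists_dual_vectors hz0 hYz
  rcases hbig with ⟨t, ht0, ht1⟩ | ha
  · have h1 := hdiff (t • g) z (by simp [hgz])
    have h2 := (hdiff g z hgz).smul t
    refine ⟨g, z, hz0, fun h => by simp [h] at hgY, hgz, ?_⟩
    have h3 := (h1.sub h2).smul (t - t * t)⁻¹
    convert h3 using 1
    have hne : t - t * t ≠ 0 := by
      rw [show t - t * t = t * (1 - t) by ring]
      exact mul_ne_zero ht0 (sub_ne_zero.2 (Ne.symm ht1))
    refine LinearMap.ext fun x => ?_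
    simp [hgY]
    match_scalars <;> field_simp <;> ring
  · obtain ⟨g₂, hg₂, hg₂z, hg₂Y⟩ : ∃ g₂ : (Fin a → F) →ₗ[F] F,
        g₂ ≠ 0 ∧ g₂ z = 0 ∧ g₂ (Y z) = 0 := by
      have hlt : Submodule.span F ({z, Y z} : Set (Fin a → F)) ≠ ⊤ := fun h => by
        classical
        have h5 := finrank_span_finset_le_card (R := F) ({z, Y z} : Finset (Fin a → F))
        rw [Finset.coe_pair] at h5
        have h6 : Set.finrank F ({z, Y z} : Set (Fin a → F)) = a := by
          rw [Set.finrank, h, finrank_top, finrank_fin_fun]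
        have h7 : ({z, Y z} : Finset (Fin a → F)).card ≤ 2 := Finset.card_le_two
        omega
      obtain ⟨x, -, hx⟩ := SetLike.exists_of_lt (lt_top_iff_ne_top.2 hlt)
      obtain ⟨g₂, h1, h2⟩ := Submodule.exists_dual_map_eq_bot_of_notMem hx inferInstance
      exact ⟨g₂, fun h => h1 (by simp [h]),
        (Submodule.eq_bot_iff _).1 h2 _ ⟨z, Submodule.subset_span (by simp), rfl⟩,
        (Submodule.eq_bot_iff _).1 h2 _ ⟨Y z, Submodule.subset_span (by simp), rfl⟩⟩
    refine ⟨g₂, z, hz0, hg₂, hg₂z, ?_⟩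
    convert ((hdiff g z hgz).add (hdiff g₂ z hg₂z)).sub
      (hdiff (g + g₂) z (by simp [hgz, hg₂z])) using 1
    refine LinearMap.ext fun x => ?_
    simp [hgY, hg₂Y]
    module

variable (hG : Factors G)
include hG

/-- One rank-one parameter gives all of them. -/
lemma params_rank_one {v : Fin b → F} (h : IsRootParam G v) (f' : (Fin a → F) →ₗ[F] F)
    (z : Fin a → F) (hz : f' z = 0) : Params G v (f'.smulRight z) := by
  obtain ⟨f, u, hu, hf, hfu, hP⟩ := h
  -- change the functional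
  have change : ∀ (f : (Fin a → F) →ₗ[F] F) (u : Fin a → F), f ≠ 0 → f u = 0 →
      Params G v (f.smulRight u) → ∀ f' : (Fin a → F) →ₗ[F] F, f' u = 0 →
      Params G v (f'.smulRight u) := by
    intro f u hf hfu hP f' hf'u
    obtain ⟨x, hx⟩ : ∃ x, f x = 1 := by
      obtain ⟨x, hx⟩ : ∃ x, f x ≠ 0 := by
        by_contra hc; push Not at hc; exact hf (LinearMap.ext hc)
      exact ⟨(f x)⁻¹ • x, by simp [hx]⟩
    by_cases hd : ∀ y, f y = 0 → f' y = 0
    · have he : f' = f' x • f := LinearMap.ext fun y => by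
        have h1 := hd (y - f y • x) (by simp [hx])
        simp at h1
        rw [LinearMap.smul_apply, smul_eq_mul]
        linear_combination h1
      rw [he]
      convert hP.smul (f' x) using 1
      exact LinearMap.ext fun y => by simp [mul_smul]
    · push Not at hd
      obtain ⟨y, hfy, hf'y⟩ := hd
      set u₂ := x + ((1 - f' x) / f' y) • y with hu₂
      have h1 : f u₂ = 1 := by simp [hu₂, hx, hfy]
      have h2 : f' u₂ = 1 := by simp [hu₂, div_mul_cancel₀ _ hf'y]
      have h3 : (f - f') u₂ = 0 := by simp [h1, h2]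
      convert hP.conj hG h3 using 1
      refine LinearMap.ext fun w => ?_
      simp [hfu, hf'u, h1]
  rcases eq_or_ne z 0 with rfl | hz0
  · convert hP.smul 0 using 1
    exact LinearMap.ext fun y => by simp
  by_cases hzu : z ∈ F ∙ u
  · obtain ⟨c, rfl⟩ := Submodule.mem_span_singleton.1 hzu
    have hc : c ≠ 0 := fun h0 => hz0 (by rw [h0, zero_smul])
    have hf'u : f' u = 0 := by simpa [hc] using hz
    convert (change f u hf hfu hP f' hf'u).smul c using 1
    exact LinearMap.ext fun y => by simp [smul_smul, mul_comm]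
  have hzu' : z - u ∉ F ∙ u := fun h => hzu (by
    simpa using add_mem h (Submodule.mem_span_singleton_self u))
  obtain ⟨g₁, hg₁u, hg₁z⟩ := exists_dual_vectors hu hzu
  have hu' : u ∉ F ∙ z := fun h => hzu (by
    obtain ⟨c, hc⟩ := Submodule.mem_span_singleton.1 h
    have hc0 : c ≠ 0 := fun h0 => hu (by rw [← hc, h0, zero_smul])
    exact Submodule.mem_span_singleton.2 ⟨c⁻¹, by rw [← hc, inv_smul_smul₀ hc0]⟩)
  obtain ⟨g₂, hg₂z, hg₂u⟩ := exists_dual_vectors hz0 hu'
  have hg : (g₁ + g₂) (z - u) = 0 := by simp [hg₁u, hg₁z, hg₂u, hg₂z]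
  set τ' : (Fin a → F) →ₗ[F] (Fin a → F) := LinearMap.id - (g₁ + g₂).smulRight (z - u) with hτ'
  have h1 : Params G v ((f ∘ₗ τ').smulRight z) := by
    convert hP.conj hG hg using 1
    refine LinearMap.ext fun w => ?_
    simp [hτ', hg₁u, hg₂u]
  refine change (f ∘ₗ τ') z (fun h0 => hf (LinearMap.ext fun y => ?_)) ?_ h1 f' hz
  · have := LinearMap.congr_fun h0 (y + (g₁ + g₂) y • (z - u))
    simpa [hτ', hg₁u, hg₁z, hg₂u, hg₂z] using this
  · simp [hτ', hg₁z, hg₂z, hfu]

/-- A root element at one line whose map is not scalar. -/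
lemma isRootParam_of_general (hb : 3 ≤ b) (hbig : (∃ t : F, t ≠ 0 ∧ t ≠ 1) ∨ 3 ≤ a)
    {v : Fin b → F} {Γ : Matrix (Fin a) (Fin b) F →ₗ[F] (Fin a → F)}
    (hΓ : ∀ u, Γ (colMap v u) = 0) (hmem : Mem G (colMap v ∘ₗ Γ))
    (hns : ∀ φ : Fin b → F, ∃ X, Γ X ≠ X *ᵥ φ) : IsRootParam G v := by
  classical
  have hY : ∀ w : Fin b → F, Params G v (Γ ∘ₗ colMap w) := by
    intro w
    obtain ⟨η, hη, hwη, hη0⟩ : ∃ η : Fin b → F, v ⬝ᵥ η = 0 ∧ w ⬝ᵥ η = 0 ∧ η ≠ 0 := by
      let φ : (Fin b → F) →ₗ[F] (Fin 2 → F) :=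
        LinearMap.pi ![dotProductBilin F F v, dotProductBilin F F w]
      obtain ⟨η, hη, hη0⟩ := Submodule.exists_mem_ne_zero_of_ne_bot
        (LinearMap.ker_ne_bot_of_finrank_lt (f := φ) (by simp; omega))
      have h0 := congrFun (LinearMap.mem_ker.1 hη) 0
      have h1 := congrFun (LinearMap.mem_ker.1 hη) 1
      exact ⟨η, h0, h1, hη0⟩
    refine params_of_one hG hb hη hη0 ?_
    have h1 := mem_conj hmem (hG.right η w hwη) fun X => by simp [rowMap_colMap, hwη]
    have h1' : Mem G (colMap v ∘ₗ Γ - rootMap (Γ ∘ₗ colMap w) η v) := h1.congr fun X => by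
      simp [rowMap_colMap, hη, map_sub]
    have h2 := h1'.neg fun X => by simp [rowMap_colMap, hη, hΓ, map_sub]
    exact (hmem.add h2 fun X => by simp [hΓ, map_sub]).congr fun X => by simp
  obtain ⟨w, hw⟩ : ∃ w : Fin b → F, ∀ c : F, Γ ∘ₗ colMap w ≠ c • LinearMap.id := by
    by_contra hc
    push Not at hc
    choose c hc using fun j => hc (Pi.single j 1)
    obtain ⟨X, hX⟩ := hns c
    apply hX
    have hX' : X = ∑ j, colMap (Pi.single j (1 : F)) (fun i => X i j) := by
      ext i k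
      rw [Matrix.sum_apply, Finset.sum_eq_single k]
      · simp [colMap_apply, vecMulVec_apply]
      · intro j _ hj; simp [colMap_apply, vecMulVec_apply, hj.symm]
      · simp
    conv_lhs => rw [hX', map_sum]
    funext i
    rw [Finset.sum_apply]
    refine Finset.sum_congr rfl fun j _ => ?_
    have := congrFun (LinearMap.congr_fun (hc j) fun i => X i j) i
    simpa [mul_comm] using this
  exact isRootParam_of_diff hw hbig fun g z hgz => ((hY w).conj hG hgz).sub (hY w)

end Cfsg.Agent.MaxSub.TensorMax
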