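import Cfsg.Agent.MaxSub.TensorMax.SympBase
import Cfsg.Agent.MaxSub.TensorMax.Root

/-!
An element fixing a line is a tensor product unless some member is not scalar.
-/

set_option autoImplicit false

namespace Cfsg.Agent.MaxSub.TensorMax

open Module Matrix QuadraticMap Cfsg.Agent.MaxSub.ExtField

variable {F : Type*} [Field F] {a b : ℕ}

/-- `h` is `X ↦ A X B`. -/
def Tens (h : Matrix (Fin a) (Fin b) F ≃ₗ[F] Matrix (Fin a) (Fin b) F) : Prop :=
  ∃ (A : Matrix (Fin a) (Fin a) F) (B : Matrix (Fin b) (Fin b) F), ∀ X, h X = A * X * B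

lemma eq_sum_colMap (X : Matrix (Fin a) (Fin b) F) :
    X = ∑ j, colMap (Pi.single j (1 : F)) (fun i => X i j) := by
  ext i k
  rw [Matrix.sum_apply, Finset.sum_eq_single k]
  · simp [colMap_apply, vecMulVec_apply]
  · intro j _ hj; simp [colMap_apply, vecMulVec_apply, hj.symm]
  · simp

lemma ext_colMap {M : Type*} [AddCommGroup M] [Module F M]
    {φ ψ : Matrix (Fin a) (Fin b) F →ₗ[F] M} (h : ∀ w u, φ (colMap w u) = ψ (colMap w u))
    (X : Matrix (Fin a) (Fin b) F) : φ X = ψ X := by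
  rw [eq_sum_colMap X, map_sum, map_sum]
  exact Finset.sum_congr rfl fun j _ => h _ _

namespace SData

variable {D : SData F a b} {G : Subgroup (Matrix (Fin a) (Fin b) F ≃ₗ[F] Matrix (Fin a) (Fin b) F)}
  (hG : D.Good G) (hb : 6 ≤ b)
include hG hb

/-- Blocks of an element of the radical of the stabiliser of a line are members. -/
lemma nset_of_radical {E : Matrix (Fin a) (Fin b) F →ₗ[F] Matrix (Fin a) (Fin b) F} (hE : Mem G E)
    {v w₀ : Fin b → F} (hw₀ : D.g w₀ v = 1) (hL : ∀ u, E (colMap v u) = 0)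
    (himg : ∀ X, rowMap (D.η v) (E X) = 0)
    (hperp : ∀ X, rowMap (D.η v) X = 0 → E X ∈ line v)
    {e : Fin b → F} (he : D.Orth v e) (N : (Fin a → F) →ₗ[F] (Fin a → F))
    (hN : ∀ y, E (colMap e y) = colMap v (N y)) : D.Nset G N := by
  have hev := he.g_symm
  have hline : ∀ X, rowMap (D.η v) X = 0 → rowMap (D.η e) (E X) = 0 ∧ E (E X) = 0 :=
    fun X hX => by
      obtain ⟨u, hu⟩ := hperp X hX
      rw [← hu, row_col, he.2.2, zero_smul, hL]
      exact ⟨rfl, rfl⟩
  have hEEE : ∀ X, E (E (E X)) = 0 := fun X => (hline (E X) (himg X)).2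
  set P := rowMap (D.η e) ∘ₗ E ∘ₗ colMap w₀ with hP
  have hP0 : ∀ X, rowMap (D.η e) (E X) = P (rowMap (D.η v) X) := fun X => by
    have h1 := (hline (X - colMap w₀ (rowMap (D.η v) X))
      (by rw [map_sub, row_col, hw₀, one_smul, sub_self])).1
    rw [map_sub, map_sub, sub_eq_zero] at h1
    exact h1
  obtain ⟨g, hg, hgx⟩ := hE
  obtain ⟨t, ht, htx⟩ := hG.right e 1
  have htx' : ∀ X, t X = X + colMap e (rowMap (D.η e) X) := fun X => by
    rw [htx, one_smul]; rfl
  have hti : ∀ X, t⁻¹ X = X - colMap e (rowMap (D.η e) X) := fun X => t.injective (by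
    rw [self_inv_apply, htx', map_sub, row_col, D.hg.alt, zero_smul, sub_zero, sub_add_cancel])
  have hgi : ∀ X, g⁻¹ X = X - E X + E (E X) := fun X => g.injective (by
    rw [self_inv_apply, hgx, map_add, map_sub, hEEE, add_zero]
    abel)
  have hK : Mem G (D.q (-N) P v e + cr D v v (N ∘ₗ P)) := by
    refine ⟨t * g * t⁻¹ * g⁻¹, mul_mem (mul_mem (mul_mem ht hg) (inv_mem ht)) (inv_mem hg),
      fun X => ?_⟩
    simp only [LinearEquiv.mul_apply, hti]
    rw [map_sub g, self_inv_apply, hgx (colMap e _), hN, htx']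
    have hZ : rowMap (D.η e) (g⁻¹ X) = rowMap (D.η e) X - P (rowMap (D.η v) X) := by
      rw [hgi, map_add, map_sub, (hline (E X) (himg X)).1, add_zero, hP0]
    simp only [hZ, map_sub, map_add, row_col, D.hg.alt, he.2.2, zero_smul, q, cr_apply,
      LinearMap.add_apply, LinearMap.neg_apply, LinearMap.comp_apply, map_neg]
    simp
    abel
  obtain ⟨e', e₂, h1, h2, -, h4, h5, h6, -⟩ := exists_chain hb he
  have h7 := nset_of_mem hG hb h5
    (comm_q he.2.2 h1 h2 h4.2.2 h5.2.2 h6 hK (mem_q_one hG h4.2.2))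
  simpa using h7.smul (-1)

/-- An element fixing a line is a tensor product if all members are scalar. -/
theorem tens_of_fix (ha : 2 ≤ a) (hbig : (∃ t : F, t ≠ 0 ∧ t ≠ 1) ∨ 3 ≤ a)
    (hsc : ∀ N, D.Nset G N → ∃ c : F, N = c • LinearMap.id)
    {k : Matrix (Fin a) (Fin b) F ≃ₗ[F] Matrix (Fin a) (Fin b) F} (hk : k ∈ G)
    {v : Fin b → F} (hv : v ≠ 0) (hfix : (line (a := a) v).map k.toLinearMap = line v) :
    Tens k := by
  classical
  set h := k⁻¹ with hh
  obtain ⟨w₀, hw₀⟩ : ∃ w₀, D.g w₀ v = 1 := by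
    obtain ⟨φ, hφ⟩ := exists_dot_eq_one hv
    obtain ⟨c, hc⟩ := D.hg.exists_dual (dotProductBilin F F φ)
    exact ⟨c, by rw [hc]; show φ ⬝ᵥ v = 1; rw [dotProduct_comm, hφ]⟩
  set w₁ := -w₀ with hw₁
  have hvw₁ : D.g v w₁ = 1 := by rw [hw₁, map_neg, D.hg.skew, hw₀, neg_neg]
  have hco : ∀ {X}, X ∈ line (a := a) v → colMap v (rowMap (D.η w₁) X) = X := by
    rintro X ⟨u, rfl⟩; rw [row_col, hvw₁, one_smul]
  have hinjv := colMap_injective (a := a) hv
  set β := rowMap (D.η w₁) ∘ₗ h.toLinearMap ∘ₗ colMap v with hβd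
  set β' := rowMap (D.η w₁) ∘ₗ k.toLinearMap ∘ₗ colMap v with hβ'd
  have hkv : ∀ u, k (colMap v u) = colMap v (β' u) := fun u =>
    (hco (hfix ▸ Submodule.mem_map_of_mem (f := k.toLinearMap)
      (show colMap v u ∈ line v from ⟨u, rfl⟩))).symm
  have hhv : ∀ u, h (colMap v u) = colMap v (β u) := fun u => by
    refine (hco ?_).symm
    obtain ⟨Y, hY, hYe⟩ : colMap v u ∈ (line (a := a) v).map k.toLinearMap := hfix.symm ▸ ⟨u, rfl⟩
    show h (colMap v u) ∈ line v
    rw [show h (colMap v u) = Y by rw [← hYe]; exact inv_apply_self k Y]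
    exact hY
  have hββ' : ∀ u, β' (β u) = u := fun u => hinjv (by
    rw [← hkv, ← hhv, hh, self_inv_apply])
  have hβ'β : ∀ u, β (β' u) = u := fun u => hinjv (by
    rw [← hhv, ← hkv, hh, inv_apply_self])
  have hhG : h ∈ G := inv_mem hk
  have hkh : ∀ X, k (h X) = X := self_inv_apply k
  have hhk : ∀ X, h (k X) = X := inv_apply_self k
  have hpol : ∀ (m : Matrix (Fin a) (Fin b) F ≃ₗ[F] Matrix (Fin a) (Fin b) F), m ∈ G →
      ∀ X Y, polar D.Q (m X) (m Y) = polar D.Q X Y := fun m hm X Y => by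
    simp only [polar, ← map_add, hG.isom m hm]
  have hadjk : ∀ X u, D.f (rowMap (D.η v) (k X)) (β' u) = D.f (rowMap (D.η v) X) u := fun X u => by
    rw [← D.polar_col, ← D.polar_col, ← hkv, hpol k hk]
  have hadjh : ∀ X u, D.f (rowMap (D.η v) (h X)) (β u) = D.f (rowMap (D.η v) X) u := fun X u => by
    rw [← D.polar_col, ← D.polar_col, ← hhv, hpol h hhG]
  have hperpk : ∀ X, rowMap (D.η v) X = 0 → rowMap (D.η v) (k X) = 0 := fun X hX =>
    D.hf.nd _ fun u => by rw [← hββ' u, hadjk, hX, map_zero, LinearMap.zero_apply]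
  have hperph : ∀ X, rowMap (D.η v) X = 0 → rowMap (D.η v) (h X) = 0 := fun X hX =>
    D.hf.nd _ fun u => by rw [← hβ'β u, hadjh, hX, map_zero, LinearMap.zero_apply]
  set κ := rowMap (D.η v) ∘ₗ k.toLinearMap ∘ₗ colMap w₀ with hκd
  have hκ : ∀ X, rowMap (D.η v) (k X) = κ (rowMap (D.η v) X) := fun X => by
    have h1 := hperpk (X - colMap w₀ (rowMap (D.η v) X))
      (by rw [map_sub, row_col, hw₀, one_smul, sub_self])
    rw [map_sub k, map_sub, sub_eq_zero] at h1
    exact h1
  -- the transvection at `v`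
  obtain ⟨lam, hlam⟩ : ∃ lam : F, β ∘ₗ κ = lam • LinearMap.id := by
    refine hsc _ (nset_of_root hG hb hv ?_)
    refine ((hG.right v 1).conj hhG).congr fun X => ?_
    show h ((1 : F) • colMap v (rowMap (D.η v) (h⁻¹ X))) = colMap v (β (κ (rowMap (D.η v) X)))
    rw [one_smul, hhv, hh, inv_inv, hκ]
  have hlam' : ∀ y, β (κ y) = lam • y := fun y => by
    simpa using LinearMap.congr_fun hlam y
  have hκ' : ∀ y, κ y = lam • β' y := fun y => by
    rw [← hββ' (κ y), hlam', map_smul]
  have hsim : ∀ y u, lam * D.f (β' y) (β' u) = D.f y u := fun y u => by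
    have h1 := hadjk (colMap w₀ y) u
    rw [hκ, row_col, hw₀, one_smul, hκ', map_smul, LinearMap.smul_apply, smul_eq_mul] at h1
    exact h1
  obtain ⟨u₀, hu₀⟩ : ∃ u₀ : Fin a → F, u₀ ≠ 0 :=
    ⟨Pi.single ⟨0, by omega⟩ 1, fun h0 => one_ne_zero (by simpa using congrFun h0 ⟨0, by omega⟩ : (1 : F) = 0)⟩
  have hl0 : lam ≠ 0 := fun h0 => hu₀ (D.hf.nd _ fun u => by rw [← hsim, h0, zero_mul])
  have hsim' : ∀ y u, D.f (β y) (β u) = lam * D.f y u := fun y u => by
    rw [← hsim (β y) (β u), hββ', hββ']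
  obtain ⟨φ, hφ⟩ := exists_dot_eq_one hu₀
  set y₀ := β u₀ with hy₀
  have hφy₀ : φ ⬝ᵥ β' y₀ = 1 := by rw [hy₀, hββ', dotProduct_comm, hφ]
  let Γ : (Fin b → F) →ₗ[F] (Fin b → F) :=
    { toFun := fun w => φ ᵥ* k (colMap w y₀)
      map_add' := fun w w' => by rw [col_add, map_add, Matrix.vecMul_add]
      map_smul' := fun c w => by
        rw [colMap_smul_right, map_smul, Matrix.vecMul_smul, RingHom.id_apply] }
  have hΓ : ∀ w c, D.g (Γ w) c = φ ⬝ᵥ rowMap (D.η c) (k (colMap w y₀)) := fun w c => by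
    rw [← D.g_eq, rowMap_apply, dotProduct_mulVec]; rfl
  have hvecMul : ∀ (g : Fin b → F) (u : Fin a → F), φ ᵥ* colMap g u = (φ ⬝ᵥ u) • g := fun g u => by
    rw [colMap_apply, Matrix.vecMul_vecMulVec]
  have hΓv : Γ v = v := by
    show φ ᵥ* k (colMap v y₀) = v
    rw [hkv, hvecMul, hφy₀, one_smul]
  -- recognising elements of the line
  have hzero : ∀ Z : Matrix (Fin a) (Fin b) F, (∀ c, D.g c v = 0 → rowMap (D.η c) Z = 0) →
      colMap v (rowMap (D.η w₁) Z) = Z := by
    intro Z hZ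
    set Z' := Z - colMap v (rowMap (D.η w₁) Z) with hZ'
    have h1 : ∀ c, rowMap (D.η c) Z' = 0 := fun c => by
      have hc' : D.g (c - D.g c v • w₀) v = 0 := by simp [hw₀]
      have e1 : rowMap (D.η c) Z' =
          rowMap (D.η (c - D.g c v • w₀)) Z' + (- D.g c v) • rowMap (D.η w₁) Z' := by
        rw [← rowMap_smul, ← rowMap_add, ← map_smul D.η, ← map_add D.η,
          show c - D.g c v • w₀ + -D.g c v • w₁ = c by rw [hw₁]; module]
      rw [e1, hZ', map_sub (rowMap (D.η (c - D.g c v • w₀))), map_sub (rowMap (D.η w₁)), hZ _ hc',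
        row_col, row_col, hvw₁, one_smul, sub_self,
        smul_zero, add_zero, D.hg.skew v, hc', neg_zero, zero_smul, sub_self]
    have h2 : Z' = 0 := funext fun i => D.hg.nd _ fun c => by
      rw [← D.g_eq]; exact congrFun (h1 c) i
    exact (sub_eq_zero.1 h2).symm
  have hdec : ∀ X : Matrix (Fin a) (Fin b) F, rowMap (D.η v) X = 0 → ∀ φ' : Matrix (Fin a) (Fin b) F →ₗ[F] _,
      (∀ e y, D.g e v = 0 → φ' (colMap e y) ∈ line (a := a) v) → φ' X ∈ line v := by
    intro X hX φ' hφ'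
    have e : ∑ j, colMap (Pi.single j 1 - D.g (Pi.single j 1) v • w₀) (fun i => X i j) = X := by
      have e1 : ∀ (x : Fin b → F) (u : Fin a → F), colMap (x - D.g x v • w₀) u =
          colMap x u - colMap w₀ (rowMap (D.η v) (colMap x u)) := fun x u => by
        rw [row_col, map_smul, sub_eq_add_neg x, col_add, ← neg_smul, colMap_smul_right]
        module
      simp only [e1]
      rw [Finset.sum_sub_distrib, ← map_sum, ← map_sum, ← eq_sum_colMap, hX, map_zero, sub_zero]
    rw [← e, map_sum]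
    exact Submodule.sum_mem _ fun j _ => hφ' _ _ (by simp [hw₀])
  -- the elements of the left factor
  have hstep : ∀ (z : Fin a → F) (t : F), ∃ E : Matrix (Fin a) (Fin b) F →ₗ[F] _, Mem G E ∧
      (∀ u, E (colMap v u) = 0) ∧ (∀ X, rowMap (D.η v) (E X) = 0) ∧
      ∀ e y (ρ : (Fin a → F) →ₗ[F] (Fin a → F)) (r : F),
        (∀ y', k (colMap e y') = colMap (Γ e) (β' y') + r • colMap v (ρ y')) →
        E (k (colMap e y)) = r • colMap v (((LinearMap.id : (Fin a → F) →ₗ[F] (Fin a → F)) - t • elat D.f z)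
          (ρ (y + (t * lam⁻¹ * D.f (β z) y) • β z)) - ρ y) := by
    intro z t
    obtain ⟨l₁, hl₁, hl₁x⟩ := hG.left z (-t)
    obtain ⟨l₂, hl₂, hl₂x⟩ := hG.left (β z) (t * lam⁻¹)
    have hl₁c : ∀ w u, l₁ (colMap w u) = colMap w (u - (t * D.f z u) • z) := fun w u => by
      rw [hl₁x, LinearMap.smul_apply, leftMap_colMap, elat_apply, map_sub, map_smul, map_smul]
      module
    have hl₂c : ∀ w u, l₂ (colMap w u) = colMap w (u + (t * lam⁻¹ * D.f (β z) u) • β z) :=
      fun w u => by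
        rw [hl₂x, LinearMap.smul_apply, leftMap_colMap, elat_apply, map_add, map_smul, map_smul]
        module
    have hr₁ : ∀ c X, rowMap (D.η c) (l₁ X) =
        rowMap (D.η c) X - (t * D.f z (rowMap (D.η c) X)) • z := fun c X => by
      rw [hl₁x, LinearMap.smul_apply, map_add, map_smul, rowMap_leftMap, elat_apply]; module
    have hr₂ : ∀ c X, rowMap (D.η c) (l₂ X) =
        rowMap (D.η c) X + (t * lam⁻¹ * D.f (β z) (rowMap (D.η c) X)) • β z := fun c X => by
      rw [hl₂x, LinearMap.smul_apply, map_add, map_smul, rowMap_leftMap, elat_apply]; module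
    have hσ : ∀ u, β' (u + (t * lam⁻¹ * D.f (β z) u) • β z) -
        (t * D.f z (β' (u + (t * lam⁻¹ * D.f (β z) u) • β z))) • z = β' u := fun u => by
      have h1 : D.f (β z) u = lam * D.f z (β' u) := by rw [← hsim', hβ'β]
      simp only [map_add, map_smul, hββ', D.hf.alt, smul_eq_mul, mul_zero, add_zero, h1]
      match_scalars <;> field_simp <;> ring
    set m := l₁ * k * l₂ * h with hm
    refine ⟨m.toLinearMap - LinearMap.id,
      ⟨m, mul_mem (mul_mem (mul_mem hl₁ hk) hl₂) hhG, fun X => by simp⟩, fun u => ?_, fun X => ?_,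
      fun e y ρ r hρ => ?_⟩
    · show m (colMap v u) - colMap v u = 0
      rw [hm, LinearEquiv.mul_apply, LinearEquiv.mul_apply, LinearEquiv.mul_apply, hhv, hl₂c, hkv,
        hl₁c, hσ, hββ', sub_self]
    · show rowMap (D.η v) (m X - X) = 0
      have h2 : rowMap (D.η v) X = lam • β' (rowMap (D.η v) (h X)) := by
        rw [← hκ', ← hκ, hkh]
      rw [map_sub, hm, LinearEquiv.mul_apply, LinearEquiv.mul_apply, LinearEquiv.mul_apply, hr₁,
        hκ, hr₂, hκ', h2, map_smul (D.f z), smul_eq_mul, sub_eq_zero]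
      have h3 := congrArg (lam • ·) (hσ (rowMap (D.η v) (h X)))
      simp only [smul_sub, smul_smul] at h3
      rw [show t * (lam * D.f z (β' (rowMap (D.η v) (h X) +
        (t * lam⁻¹ * D.f (β z) (rowMap (D.η v) (h X))) • β z))) = lam * (t * D.f z (β'
        (rowMap (D.η v) (h X) + (t * lam⁻¹ * D.f (β z) (rowMap (D.η v) (h X))) • β z))) by ring]
      exact h3
    · show m (k (colMap e y)) - k (colMap e y) = _
      rw [hm, LinearEquiv.mul_apply, LinearEquiv.mul_apply, LinearEquiv.mul_apply, hhk, hl₂c, hρ,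
        map_add l₁, map_smul l₁, hl₁c, hl₁c, hσ, hρ y, map_sub (colMap v), smul_sub]
      simp only [LinearMap.sub_apply, LinearMap.id_apply, LinearMap.smul_apply, elat_apply,
        map_sub, map_smul]
      module
  have hscalar : ∀ ρ : (Fin a → F) →ₗ[F] (Fin a → F),
      (∀ (z : Fin a → F) (t : F), ∃ s : F, ∀ y, ((LinearMap.id : (Fin a → F) →ₗ[F] (Fin a → F)) - t • elat D.f z)
        (ρ (β y + (t * lam⁻¹ * D.f (β z) (β y)) • β z)) - ρ (β y) = s • y) →
      φ ⬝ᵥ ρ y₀ = 0 → ρ = 0 := by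
    intro ρ hρ hρ0
    have hbig' : (∃ t : F, t ≠ 0 ∧ t ≠ 1) ∨ 3 ≤ finrank F (Fin a → F) := by
      rwa [finrank_fin_fun]
    have hd : ∀ (z : Fin a → F) (t : F), ∃ s : F,
        (LinearMap.id - t • elat D.f z) ∘ₗ (ρ ∘ₗ β) ∘ₗ (LinearMap.id + t • elat D.f z) - ρ ∘ₗ β =
          s • LinearMap.id := fun z t => by
      obtain ⟨s, hs⟩ := hρ z t
      refine ⟨s, LinearMap.ext fun y => ?_⟩
      show _ = s • y
      rw [← hs]
      simp [hsim', elat_apply, map_add, map_smul, mul_assoc, hl0]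
      module
    obtain ⟨μ, hμ⟩ := eq_smul_id (ρ ∘ₗ β) fun z => by
      obtain ⟨c, hc⟩ := Submodule.mem_span_singleton.1 (D.hf.scalar_of_diff hbig' hd z)
      exact ⟨c, hc.symm⟩
    have hρy : ∀ y, ρ y = μ • β' y := fun y => by
      have := LinearMap.congr_fun hμ (β' y)
      rwa [LinearMap.comp_apply, hβ'β] at this
    have hμ0 : μ = 0 := by
      rw [hρy, dotProduct_smul, hφy₀] at hρ0; simpa using hρ0
    exact LinearMap.ext fun y => by rw [hρy, hμ0, zero_smul]; rfl
  -- the middle block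
  let ρ : (Fin b → F) → (Fin a → F) →ₗ[F] (Fin a → F) := fun e =>
    rowMap (D.η w₁) ∘ₗ (k.toLinearMap ∘ₗ colMap e - colMap (Γ e) ∘ₗ β')
  have hy₀0 : y₀ ≠ 0 := fun h0 => by
    rw [h0, map_zero, dotProduct_zero] at hφy₀; exact zero_ne_one hφy₀
  have hmid₀ : ∀ e, D.g e v = 0 → ∀ y,
      k (colMap e y) = colMap (Γ e) (β' y) + (1 : F) • colMap v (ρ e y) := by
    intro e hev y
    have hs : ∀ c, D.g c v = 0 → ∃ s : F, ∀ y, rowMap (D.η c) (k (colMap e y)) = s • β' y := by
      intro c hc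
      have hvc : D.g v c = 0 := by rw [D.hg.skew, hc, neg_zero]
      by_cases hev' : e ∈ F ∙ v
      · obtain ⟨r, rfl⟩ := Submodule.mem_span_singleton.1 hev'
        exact ⟨0, fun y => by
          simp [colMap_smul_right, map_smul, hkv, row_col, hvc]⟩
      have he : D.Orth v e := ⟨hv, hev', by rw [D.hg.skew, hev, neg_zero]⟩
      have hq := (mem_q_one hG hvc).conj hhG
      obtain ⟨s, hs⟩ := hsc _ (nset_of_radical hG hb hq hw₀
        (fun u => by simp [hh, inv_inv, hkv, q, cr_apply, row_col, hvc, D.hg.alt])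
        (fun X => hperph _ (by simp [q, cr_apply, row_col, hc, D.hg.alt]))
        (fun X hX => by
          refine ⟨β (rowMap (D.η c) (k X)), ?_⟩
          simp [hh, inv_inv, q, cr_apply, hperpk X hX, ← hhv])
        he (β ∘ₗ rowMap (D.η c) ∘ₗ k.toLinearMap ∘ₗ colMap e)
        (fun y => by
          have h1 : rowMap (D.η v) (k (colMap e y)) = 0 :=
            hperpk _ (by rw [row_col, hev, zero_smul])
          simp [hh, inv_inv, q, cr_apply, h1, ← hhv]))
      refine ⟨s, fun y => ?_⟩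
      have := LinearMap.congr_fun hs y
      simp only [LinearMap.comp_apply, LinearEquiv.coe_coe, LinearMap.smul_apply,
        LinearMap.id_apply] at this
      rw [← hββ' (rowMap (D.η c) (k (colMap e y))), this, map_smul]
    have h1 := hzero (k (colMap e y) - colMap (Γ e) (β' y)) fun c hc => by
      obtain ⟨s, hs⟩ := hs c hc
      rw [map_sub, row_col, hs, hΓ, hs, dotProduct_smul, hφy₀, smul_eq_mul, mul_one, sub_self]
    rw [one_smul]
    show _ = _ + colMap v (rowMap (D.η w₁) (k (colMap e y) - colMap (Γ e) (β' y)))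
    rw [h1]; abel
  have hΓperp : ∀ e, D.g e v = 0 → D.g (Γ e) v = 0 := fun e he => by
    rw [hΓ, hperpk _ (by rw [row_col, he, zero_smul]), dotProduct_zero]
  have hmid : ∀ e, D.g e v = 0 → ∀ y, k (colMap e y) = colMap (Γ e) (β' y) := by
    intro e hev
    by_cases hev' : e ∈ F ∙ v
    · obtain ⟨r, rfl⟩ := Submodule.mem_span_singleton.1 hev'
      intro y
      rw [map_smul, hΓv, colMap_smul_right, map_smul, hkv, colMap_smul_right]
    have hρ0 : φ ⬝ᵥ ρ e y₀ = 0 := by
      have h1 : Γ e = φ ᵥ* k (colMap e y₀) := rfl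
      rw [hmid₀ e hev, one_smul, Matrix.vecMul_add, hvecMul, hvecMul, hφy₀, one_smul, left_eq_add,
        smul_eq_zero] at h1
      exact h1.resolve_right hv
    have hΓe : Γ e ∉ F ∙ v := fun hm => hev' (by
      obtain ⟨r, hr⟩ := Submodule.mem_span_singleton.1 hm
      have h1 : k (colMap e y₀) = k (colMap v (β (r • β' y₀ + ρ e y₀))) := by
        rw [hkv, hββ', hmid₀ e hev, ← hr, colMap_smul_right, map_add, map_smul, one_smul]
      have h2 := k.injective h1
      obtain ⟨i, hi⟩ := Function.ne_iff.1 hy₀0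
      refine Submodule.mem_span_singleton.2
        ⟨(y₀ i)⁻¹ * β (r • β' y₀ + ρ e y₀) i, funext fun j => ?_⟩
      have h3 := congrFun (congrFun h2 i) j
      simp only [colMap_apply, vecMulVec_apply] at h3
      rw [Pi.smul_apply, smul_eq_mul, mul_assoc, ← h3, inv_mul_cancel_left₀ hi])
    have hρ : ρ e = 0 := hscalar (ρ e) (fun z t => by
      obtain ⟨E, hE, hEv, hEi, hEk⟩ := hstep z t
      obtain ⟨s, hs⟩ := hsc _ (nset_of_radical hG hb hE hw₀ hEv hEi
        (fun X hX => by
          have h1 := hdec (h X) (hperph X hX) (E ∘ₗ k.toLinearMap) fun e' y he' => by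
            show E (k (colMap e' y)) ∈ line v
            rw [hEk e' y (ρ e') 1 (hmid₀ e' he'), one_smul]
            exact ⟨_, rfl⟩
          simpa [hkh] using h1)
        (show D.Orth v (Γ e) from ⟨hv, hΓe, by rw [D.hg.skew, hΓperp e hev, neg_zero]⟩)
        (((LinearMap.id - t • elat D.f z) ∘ₗ ρ e ∘ₗ
          (LinearMap.id + (t * lam⁻¹) • elat D.f (β z)) - ρ e) ∘ₗ β)
        fun y => by
          have h1 : colMap (Γ e) y = k (colMap e (β y)) - colMap v (ρ e (β y)) := by
            rw [hmid₀ e hev, hββ', one_smul, add_sub_cancel_right]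
          rw [h1, map_sub, hEv, sub_zero, hEk e (β y) (ρ e) 1 (hmid₀ e hev), one_smul]
          simp [elat_apply, smul_smul])
      refine ⟨s, fun y => ?_⟩
      have := LinearMap.congr_fun hs y
      simpa [elat_apply, smul_smul] using this) hρ0
    intro y
    rw [hmid₀ e hev, hρ]; simp
  -- the complementary line
  set r := rowMap (D.η w₁) ∘ₗ (k.toLinearMap ∘ₗ colMap w₀ - colMap (Γ w₀) ∘ₗ β') with hrd
  have hkr : ∀ y, k (colMap w₀ y) = colMap (Γ w₀) (β' y) + (1 : F) • colMap v (r y) := fun y => by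
    have hval : ∀ y e, D.g e v = 0 →
        rowMap (D.η (Γ e)) (k (colMap w₀ y)) = (lam * D.g w₀ e) • β' y := fun y e he => by
      refine sub_eq_zero.1 (D.hf.nd _ fun u => ?_)
      have h1 := hpol k hk (colMap w₀ y) (colMap e (β (β' (β u))))
      rw [hmid e he, D.polar_col, D.polar_col, row_col, hββ'] at h1
      simp only [map_sub, LinearMap.sub_apply, map_smul, LinearMap.smul_apply, smul_eq_mul]
      rw [← hββ' u, h1, ← hsim]
      simp only [map_smul, LinearMap.smul_apply, hββ', smul_eq_mul]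
      ring
    have h1 := hzero (k (colMap w₀ y) - colMap (Γ w₀) (β' y)) fun c hc => by
      let S : Submodule F (Fin b → F) := LinearMap.ker (D.g.flip v)
      have hmaps : ∀ e ∈ S, Γ e ∈ S := fun e he => by
        show D.g (Γ e) v = 0
        rw [hΓ, hperpk _ (by rw [row_col, show D.g e v = 0 from he, zero_smul]), dotProduct_zero]
      have hinj : Function.Injective (Γ.restrict hmaps) := by
        rw [← LinearMap.ker_eq_bot, LinearMap.ker_eq_bot']
        rintro ⟨e, he⟩ h0
        have h0' : Γ e = 0 := congrArg Subtype.val h0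
        have h2 : k (colMap e y₀) = k 0 := by
          rw [hmid e he, h0', map_zero]
          ext i j; simp [colMap_apply, vecMulVec_apply]
        obtain ⟨i, hi⟩ := Function.ne_iff.1 (show y₀ ≠ 0 from fun h0 => by
          rw [h0, map_zero, dotProduct_zero] at hφy₀; exact zero_ne_one hφy₀)
        refine Subtype.ext (funext fun j => ?_)
        have h3 := congrFun (congrFun (k.injective h2) i) j
        have hi' : y₀ i ≠ 0 := hi
        simpa [colMap_apply, vecMulVec_apply, hi'] using h3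
      obtain ⟨⟨e, he⟩, hec⟩ := LinearMap.injective_iff_surjective.1 hinj ⟨c, hc⟩
      obtain rfl : Γ e = c := congrArg Subtype.val hec
      rw [map_sub, row_col, hval y e he, hΓ, hval y₀ e he, dotProduct_smul, hφy₀, smul_eq_mul,
        mul_one, sub_self]
    rw [one_smul, hrd]
    show _ = _ + colMap v (rowMap (D.η w₁) (k (colMap w₀ y) - colMap (Γ w₀) (β' y)))
    rw [h1]; abel
  have hr0 : φ ⬝ᵥ r y₀ = 0 := by
    have h1 : Γ w₀ = φ ᵥ* k (colMap w₀ y₀) := rfl
    rw [hkr, one_smul, Matrix.vecMul_add, hvecMul, hvecMul, hφy₀, one_smul, left_eq_add,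
      smul_eq_zero] at h1
    exact h1.resolve_right hv
  have hall : ∀ w y, k (colMap w y) =
      colMap (Γ w) (β' y) + D.g w v • colMap v (r y) := fun w y => by
    have e1 : colMap w y = colMap (w - D.g w v • w₀) y + D.g w v • colMap w₀ y := by
      rw [← colMap_smul_right, ← col_add, sub_add_cancel]
    rw [e1, map_add, map_smul, hmid _ (by simp [hw₀]), hkr, one_smul, smul_add, ← colMap_smul_right,
      ← add_assoc, ← col_add, ← map_smul, ← map_add, sub_add_cancel]
  have hr : r = 0 := hscalar r (fun z t => by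
    obtain ⟨E, hE, hEv, -, hEk⟩ := hstep z t
    obtain ⟨s, hs⟩ := hsc _ (nset_of_root hG hb hv (Y := lam⁻¹ •
      (((LinearMap.id - t • elat D.f z) ∘ₗ r ∘ₗ
        (LinearMap.id + (t * lam⁻¹) • elat D.f (β z)) - r) ∘ₗ β)) (hE.congr fun X => by
        rw [← hkh X]
        refine ext_colMap (φ := E ∘ₗ k.toLinearMap)
          (ψ := cr D v v _ ∘ₗ k.toLinearMap) (fun w y => ?_) (h X)
        show E (k (colMap w y)) = _
        rw [hEk w y r (D.g w v) (fun y' => hall w y')]
        simp [cr_apply, hκ, row_col, hκ', hβ'β, elat_apply, smul_smul, hl0]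
        rw [mul_right_comm lam, mul_inv_cancel₀ hl0, one_mul]))
    refine ⟨lam * s, fun y => ?_⟩
    have h4 := congrArg (lam • ·) (LinearMap.congr_fun hs y)
    simpa [elat_apply, smul_smul, hl0] using h4) hr0
  refine ⟨LinearMap.toMatrix' β', (LinearMap.toMatrix' Γ)ᵀ, fun X => ?_⟩
  refine ext_colMap (φ := k.toLinearMap)
    (ψ := { toFun := fun X => LinearMap.toMatrix' β' * X * (LinearMap.toMatrix' Γ)ᵀ
            map_add' := fun X Y => by rw [Matrix.mul_add, Matrix.add_mul]
            map_smul' := fun c X => by rw [Matrix.mul_smul, Matrix.smul_mul, RingHom.id_apply] })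
    (fun w u => ?_) X
  show k (colMap w u) = _
  rw [hall, hr]
  simp [colMap_apply, mul_vecMulVec, vecMulVec_mul, LinearMap.toMatrix'_mulVec,
    Matrix.vecMul_transpose]

end SData

end Cfsg.Agent.MaxSub.TensorMax
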