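import Cfsg.Agent.MaxSub.TensorMax.Stab

/-!
An element not preserving the lines `U ⊗ w` gives a root parameter.
-/

set_option autoImplicit false

namespace Cfsg.Agent.MaxSub.TensorMax

open Module Matrix Cfsg.Agent.MaxSub.ExtField

variable {F : Type*} [Field F] {a b : ℕ}
  {G : Subgroup (Matrix (Fin a) (Fin b) F ≃ₗ[F] Matrix (Fin a) (Fin b) F)}

/-- An image of a line. -/
def IsMember (G : Subgroup (Matrix (Fin a) (Fin b) F ≃ₗ[F] Matrix (Fin a) (Fin b) F))
    (U : Submodule F (Matrix (Fin a) (Fin b) F)) : Prop :=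
  ∃ h ∈ G, ∃ w : Fin b → F, w ≠ 0 ∧ U = (line w).map h.toLinearMap

/-- The elation of a member. -/
def memberMap (h : Matrix (Fin a) (Fin b) F ≃ₗ[F] Matrix (Fin a) (Fin b) F) (w φ : Fin b → F) :
    Matrix (Fin a) (Fin b) F →ₗ[F] Matrix (Fin a) (Fin b) F :=
  h.toLinearMap ∘ₗ colMap w ∘ₗ rowMap φ ∘ₗ (h⁻¹ : _ ≃ₗ[F] _).toLinearMap

lemma memberMap_apply (h : Matrix (Fin a) (Fin b) F ≃ₗ[F] Matrix (Fin a) (Fin b) F)
    (w φ : Fin b → F) (X : Matrix (Fin a) (Fin b) F) :
    memberMap h w φ X = h (colMap w (rowMap φ (h⁻¹ X))) := rfl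

lemma memberMap_kill {h : Matrix (Fin a) (Fin b) F ≃ₗ[F] Matrix (Fin a) (Fin b) F}
    {w φ : Fin b → F} (hw : w ⬝ᵥ φ = 0) {X : Matrix (Fin a) (Fin b) F}
    (hX : X ∈ (line w).map h.toLinearMap) : memberMap h w φ X = 0 := by
  obtain ⟨_, ⟨u, rfl⟩, rfl⟩ := hX
  show memberMap h w φ (h (colMap w u)) = 0
  rw [memberMap_apply, inv_apply_self, rowMap_colMap, hw]
  simp

lemma memberMap_mem (h : Matrix (Fin a) (Fin b) F ≃ₗ[F] Matrix (Fin a) (Fin b) F)
    (w φ : Fin b → F) (X : Matrix (Fin a) (Fin b) F) :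
    memberMap h w φ X ∈ (line w).map h.toLinearMap :=
  ⟨_, ⟨_, rfl⟩, rfl⟩

lemma memberMap_range {h : Matrix (Fin a) (Fin b) F ≃ₗ[F] Matrix (Fin a) (Fin b) F}
    {w φ : Fin b → F} (hφ : φ ≠ 0) :
    LinearMap.range (memberMap h w φ) = (line w).map h.toLinearMap := by
  refine le_antisymm ?_ ?_
  · rintro _ ⟨X, rfl⟩
    exact memberMap_mem h w φ X
  · rintro _ ⟨_, ⟨u, rfl⟩, rfl⟩
    obtain ⟨x, hx⟩ := exists_dot_eq_one hφ
    rw [dotProduct_comm] at hx
    refine ⟨h (colMap x u), ?_⟩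
    show memberMap h w φ _ = h (colMap w u)
    rw [memberMap_apply, inv_apply_self, rowMap_colMap, hx, one_smul]

lemma IsMember.finrank {U : Submodule F (Matrix (Fin a) (Fin b) F)} (hU : IsMember G U) :
    finrank F U = a := by
  obtain ⟨h, -, w, hw, rfl⟩ := hU
  rw [LinearEquiv.finrank_map_eq, finrank_line hw]

/-- A vector killed by the element of a member, on some line. -/
lemma exists_pure_kill [Finite F] (ha : 0 < a) (hab : a < b)
    (K : Matrix (Fin a) (Fin b) F →ₗ[F] (Fin a → F)) :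
    ∃ (v : Fin b → F) (u : Fin a → F), v ≠ 0 ∧ u ≠ 0 ∧ K (colMap v u) = 0 := by
  classical
  haveI := Fintype.ofFinite F
  obtain ⟨p, hp⟩ := CharP.exists F
  haveI := hp
  have hp1 : 1 < p := (CharP.char_is_prime F p).one_lt
  let Mp : Matrix (Fin a) (Fin a) (MvPolynomial (Fin b) F) := fun i k =>
    ∑ j, MvPolynomial.C (K (Matrix.single k j 1) i) * MvPolynomial.X j
  set f := Mp.det with hf
  have hdeg : f.totalDegree ≤ a := by
    rw [hf, Matrix.det_apply]
    refine (MvPolynomial.totalDegree_finset_sum _ _).trans (Finset.sup_le fun σ _ => ?_)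
    refine (MvPolynomial.totalDegree_smul_le _ _).trans ?_
    refine (MvPolynomial.totalDegree_finset_prod _ _).trans ?_
    refine (Finset.sum_le_sum (g := fun _ => 1) fun i _ => ?_).trans (by simp)
    refine (MvPolynomial.totalDegree_finset_sum _ _).trans (Finset.sup_le fun j _ => ?_)
    refine (MvPolynomial.totalDegree_mul _ _).trans ?_
    rw [MvPolynomial.totalDegree_C, MvPolynomial.totalDegree_X]
  have hdvd := char_dvd_card_solutions p (f := f) (by rw [Fintype.card_fin]; omega)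
  have hval : ∀ x, (Mp.map (MvPolynomial.eval x)).det = MvPolynomial.eval x f := fun x => by
    rw [hf, RingHom.map_det]; rfl
  have hentry : ∀ (x : Fin b → F) i k, Mp.map (MvPolynomial.eval x) i k =
      ∑ j, K (Matrix.single k j 1) i * x j := fun x i k => by
    show MvPolynomial.eval x (∑ j, MvPolynomial.C (K (Matrix.single k j 1) i) * MvPolynomial.X j) = _
    simp
  haveI : Nonempty (Fin a) := ⟨⟨0, ha⟩⟩
  have hzero : MvPolynomial.eval (0 : Fin b → F) f = 0 := by
    rw [← hval, show Mp.map (MvPolynomial.eval (0 : Fin b → F)) = 0 from by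
      ext i k; rw [hentry]; simp, Matrix.det_zero]
  obtain ⟨⟨v, hv⟩, hv0⟩ := Fintype.exists_ne_of_one_lt_card
    (α := { x : Fin b → F // MvPolynomial.eval x f = 0 }) (by
      refine lt_of_lt_of_le hp1 (Nat.le_of_dvd ?_ hdvd)
      exact Fintype.card_pos_iff.2 ⟨⟨0, hzero⟩⟩) ⟨0, hzero⟩
  obtain ⟨u, hu, hMu⟩ := Matrix.exists_mulVec_eq_zero_iff.2 ((hval v).trans hv)
  refine ⟨v, u, fun h => hv0 (Subtype.ext h), hu, ?_⟩
  have hX : colMap v u = ∑ k, ∑ j, (u k * v j) • Matrix.single k j (1 : F) := by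
    rw [Matrix.matrix_eq_sum_single (colMap v u)]
    simp [Matrix.smul_single, colMap_apply, vecMulVec_apply]
  rw [hX, ← hMu, map_sum]
  funext i
  simp only [Finset.sum_apply, Matrix.mulVec, dotProduct, hentry, map_sum, map_smul, Pi.smul_apply,
    smul_eq_mul, Finset.sum_mul]
  exact Finset.sum_congr rfl fun k _ => Finset.sum_congr rfl fun j _ => by ring

variable (hG : Factors G) (ha : 2 ≤ a) (hab : a < b) (hbig : (∃ t : F, t ≠ 0 ∧ t ≠ 1) ∨ 3 ≤ a)
include hG ha hab hbig

/-- The element of a member stabilising a line. -/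
lemma isRootParam_of_member {h : Matrix (Fin a) (Fin b) F ≃ₗ[F] Matrix (Fin a) (Fin b) F}
    (hh : h ∈ G) {w φ v : Fin b → F} (hw : w ≠ 0) (hwφ : w ⬝ᵥ φ = 0) (hφ : φ ≠ 0) (hv : v ≠ 0)
    (hnl : ∀ v', (line w).map h.toLinearMap ≠ line v')
    (hAv : ∀ u, memberMap h w φ (colMap v u) ∈ line v) : IsRootParam G v := by
  refine isRootParam_of_stab hG ha hab hbig hv (A := memberMap h w φ)
    (((hG.right φ w hwφ).conj hh).congr fun X => rfl)
    (fun X => memberMap_kill hwφ (memberMap_mem h w φ X)) ?_ (fun v' hle => ?_) hAv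
  · rw [memberMap_range hφ, LinearEquiv.finrank_map_eq, finrank_line hw]
  · rw [memberMap_range hφ] at hle
    rcases eq_or_ne v' 0 with rfl | hv'
    · have h0 : colMap (a := a) (0 : Fin b → F) = 0 := LinearMap.ext fun x => by
        ext i j; simp [colMap_apply, vecMulVec_apply]
      have := Submodule.finrank_mono hle
      rw [LinearEquiv.finrank_map_eq, finrank_line hw, line, h0, LinearMap.range_zero,
        finrank_bot] at this
      omega
    · exact hnl v' (Submodule.eq_of_le_of_finrank_le hle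
        (by rw [LinearEquiv.finrank_map_eq, finrank_line hw, finrank_line hv']))

/-- A member meeting a line. -/
lemma exists_rootParam_of_pair {U : Submodule F (Matrix (Fin a) (Fin b) F)} (hU : IsMember G U)
    {v : Fin b → F} (hv : v ≠ 0) (hne : ∀ v', U ≠ line v') (hmeet : U ⊓ line v ≠ ⊥) :
    ∃ v₀ : Fin b → F, v₀ ≠ 0 ∧ IsRootParam G v₀ := by
  classical
  let P : ℕ → Prop := fun e => ∃ (U : Submodule F (Matrix (Fin a) (Fin b) F)) (v : Fin b → F),
    IsMember G U ∧ v ≠ 0 ∧ U ≠ line v ∧ 1 ≤ e ∧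
      finrank F (U ⊓ line v : Submodule F (Matrix (Fin a) (Fin b) F)) = e
  have hPlt : ∀ e, P e → e < a := by
    rintro e ⟨U, v, hU, hv, hne, -, rfl⟩
    by_contra hge
    apply hne
    have h1 : (U ⊓ line v : Submodule F _) = U :=
      Submodule.eq_of_le_of_finrank_le inf_le_left (by rw [hU.finrank]; omega)
    have h2 : (U ⊓ line v : Submodule F _) = line v :=
      Submodule.eq_of_le_of_finrank_le inf_le_right (by rw [finrank_line hv]; omega)
    exact h1.symm.trans h2
  have he₀ : P (finrank F (U ⊓ line v : Submodule F _)) :=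
    ⟨U, v, hU, hv, hne v, by rwa [Nat.one_le_iff_ne_zero, Ne, Submodule.finrank_eq_zero], rfl⟩
  set dm := Nat.findGreatest P a
  have hdP : P dm := Nat.findGreatest_spec (hPlt _ he₀).le he₀
  have hmax : ∀ e, P e → e ≤ dm := fun e he => Nat.le_findGreatest (hPlt e he).le he
  have hdlt := hPlt dm hdP
  obtain ⟨U, v, hU, hv, hne, hd1, hde⟩ := hdP
  obtain ⟨h, hh, w, hw, rfl⟩ := hU
  set L := line (a := a) v with hL
  set U := (line (a := a) w).map h.toLinearMap with hUd
  set D : Submodule F (Matrix (Fin a) (Fin b) F) := U ⊓ L with hD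
  have hnl : ∀ v', U ≠ line v' := by
    intro v' heq
    rcases eq_or_ne v' 0 with rfl | hv'
    · obtain ⟨x, hx, hx0⟩ := D.exists_mem_ne_zero_of_ne_bot fun hb => by
        rw [hb, finrank_bot] at hde; omega
      obtain ⟨y, hy⟩ := (heq ▸ hx.1 : x ∈ line (0 : Fin b → F))
      refine hx0 (hy.symm.trans ?_)
      ext i j; simp [colMap_apply, vecMulVec_apply]
    · obtain ⟨x, hx, hx0⟩ := D.exists_mem_ne_zero_of_ne_bot fun hb => by
        rw [hb, finrank_bot] at hde; omega
      exact hne (heq.trans (line_eq_of_mem (heq ▸ hx.1) hx.2 hx0))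
  have hUfin : finrank F U = a := by rw [hUd, LinearEquiv.finrank_map_eq, finrank_line hw]
  have hnle : ¬ L ≤ U := fun hle => hne
    (Submodule.eq_of_le_of_finrank_le hle (by rw [hUfin, hL, finrank_line hv])).symm
  obtain ⟨x₀, hx₀L, hx₀U⟩ := SetLike.not_le_iff_exists.mp hnle
  let W : Submodule F (Fin b → F) := LinearMap.ker (dotProductBilin F F w)
  have hWfin : b ≤ finrank F W + 1 := by
    have h2 := LinearMap.finrank_range_add_finrank_ker (dotProductBilin F F w)
    have h3 : finrank F (LinearMap.range (dotProductBilin F F w)) ≤ 1 :=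
      (Submodule.finrank_le _).trans (by rw [Module.finrank_self])
    rw [finrank_fin_fun] at h2
    show b ≤ finrank F (LinearMap.ker _) + 1
    omega
  let Ψ : W →ₗ[F] (U.map L.mkQ : Submodule F _) :=
    { toFun := fun φ => ⟨L.mkQ (memberMap h w φ.1 x₀),
        Submodule.mem_map_of_mem (memberMap_mem h w φ.1 x₀)⟩
      map_add' := fun φ ψ => Subtype.ext (by
        simp [memberMap_apply, rowMap_add, map_add])
      map_smul' := fun c φ => Subtype.ext (by
        simp [memberMap_apply, rowMap_smul, map_smul]) }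
  have hcod : finrank F (U.map L.mkQ : Submodule F _) + dm = a := by
    have h2 := LinearMap.finrank_range_add_finrank_ker (L.mkQ.domRestrict U)
    rw [LinearMap.range_domRestrict, LinearMap.ker_domRestrict, Submodule.ker_mkQ, hUfin] at h2
    have h3 : finrank F (L.comap U.subtype) = dm := by
      rw [← hde]
      exact ((Submodule.equivMapOfInjective U.subtype U.injective_subtype _).trans
        (LinearEquiv.ofEq _ _ (by rw [Submodule.map_comap_subtype]))).finrank_eq
    omega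
  obtain ⟨φ, hφker, hφ0⟩ := Submodule.exists_mem_ne_zero_of_ne_bot
    (LinearMap.ker_ne_bot_of_finrank_lt (f := Ψ) (by omega))
  have hwφ : w ⬝ᵥ φ.1 = 0 := φ.2
  have hφne : φ.1 ≠ 0 := fun h0 => hφ0 (Subtype.ext h0)
  set A := memberMap h w φ.1 with hA
  have hAx₀ : A x₀ ∈ L := by
    have := congrArg Subtype.val (LinearMap.mem_ker.1 hφker)
    exact (Submodule.Quotient.mk_eq_zero L).1 this
  refine ⟨v, hv, isRootParam_of_member hG ha hab hbig hh hw hwφ hφne hv hnl fun u => ?_⟩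
  obtain ⟨g, hg, hgx⟩ := ((hG.right φ.1 w hwφ).conj hh).congr (f' := A) fun X => rfl
  set L' := L.map g.toLinearMap with hL'
  have hmem : IsMember G L' := ⟨g, hg, v, hv, rfl⟩
  by_cases heq : L' = L
  · have h1 : g (colMap v u) ∈ L := heq ▸ Submodule.mem_map_of_mem (show colMap v u ∈ L from ⟨u, rfl⟩)
    rw [hgx] at h1
    exact (Submodule.add_mem_iff_right L (show colMap v u ∈ L from ⟨u, rfl⟩)).mp h1
  exfalso
  have hy₀ : g x₀ ∈ L' ⊓ L :=
    ⟨Submodule.mem_map_of_mem hx₀L, by rw [hgx]; exact L.add_mem hx₀L hAx₀⟩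
  have hDle : D ≤ L' ⊓ L := fun y hy => ⟨⟨y, hy.2, by
    show g y = y
    rw [hgx, hA, memberMap_kill hwφ hy.1, add_zero]⟩, hy.2⟩
  have hlt : D < L' ⊓ L := lt_of_le_of_ne hDle fun he => hx₀U (by
    have h2 : g x₀ ∈ D := he ▸ hy₀
    rw [hgx] at h2
    simpa using U.sub_mem h2.1 (show A x₀ ∈ U from memberMap_mem h w φ.1 x₀))
  have h2 := Submodule.finrank_lt_finrank_of_lt hlt
  rw [hde] at h2
  exact lt_irrefl _ (lt_of_lt_of_le h2 (hmax _ ⟨L', v, hmem, hv, heq, Nat.one_le_of_lt h2, rfl⟩))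

/-- An element moving some line off the lines gives a root parameter. -/
theorem exists_rootParam [Finite F]
    (hnot : ∃ h ∈ G, ∃ w : Fin b → F, w ≠ 0 ∧ ∀ v, (line w).map h.toLinearMap ≠ line v) :
    ∃ v₀ : Fin b → F, v₀ ≠ 0 ∧ IsRootParam G v₀ := by
  obtain ⟨h, hh, w, hw, hnl⟩ := hnot
  obtain ⟨φ, hwφ, hφn⟩ := exists_perp_not_mem (v := w) (by omega : 3 ≤ b) 0
  have hφ : φ ≠ 0 := fun h0 => hφn (by rw [h0]; exact zero_mem _)
  obtain ⟨v, u, hv, hu, hK⟩ := exists_pure_kill (by omega) hab (rowMap φ ∘ₗ (h⁻¹ : _ ≃ₗ[F] _).toLinearMap)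
  have hkill : memberMap h w φ (colMap v u) = 0 := by
    rw [memberMap_apply]
    rw [show rowMap φ (h⁻¹ (colMap v u)) = 0 from hK]
    simp
  obtain ⟨g, hg, hgx⟩ := ((hG.right φ w hwφ).conj hh).congr (f' := memberMap h w φ) fun X => rfl
  have hp0 : colMap v u ≠ 0 := fun h0 => hu (colMap_injective hv (h0.trans (map_zero (colMap v)).symm))
  have hgp : g (colMap v u) = colMap v u := by rw [hgx, hkill, add_zero]
  have hmemL : colMap v u ∈ (line v).map g.toLinearMap := ⟨_, ⟨u, rfl⟩, hgp⟩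
  by_cases heq : (line (a := a) v).map g.toLinearMap = line v
  · refine ⟨v, hv, isRootParam_of_member hG ha hab hbig hh hw hwφ hφ hv hnl fun x => ?_⟩
    have h1 : g (colMap v x) ∈ line (a := a) v :=
      heq ▸ Submodule.mem_map_of_mem (show colMap v x ∈ line v from ⟨x, rfl⟩)
    rw [hgx] at h1
    exact (Submodule.add_mem_iff_right _ (show colMap v x ∈ line v from ⟨x, rfl⟩)).mp h1
  refine exists_rootParam_of_pair hG ha hab hbig ⟨g, hg, v, hv, rfl⟩ hv (fun v' heq' => ?_) ?_
  · exact heq (heq'.trans (line_eq_of_mem (heq' ▸ hmemL) ⟨u, rfl⟩ hp0))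
  · exact (Submodule.ne_bot_iff _).2 ⟨_, ⟨hmemL, ⟨u, rfl⟩⟩, hp0⟩

end Cfsg.Agent.MaxSub.TensorMax
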