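import Cfsg.Agent.MaxSub.TensorMax.Gen
import Cfsg.Agent.MaxSub.TensorMax.Pair
import Cfsg.Agent.GeoClasses.TransvGen
import Cfsg.Agent.GeoClasses.Tensor
import Cfsg.Agent.MaxSub.Proper

/-!
The stabiliser of a tensor decomposition with factors of different dimensions is maximal in `SL`.
-/

set_option autoImplicit false

namespace Cfsg.Agent.MaxSub.TensorMax

open Module Matrix Cfsg.Agent.MaxSub.ExtField Cfsg.Geo Cfsg.Agent.GeoClasses
open scoped Kronecker MatrixGroups

variable {F : Type*} [Field F] {a b : ℕ}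

/-- A map sending lines to lines is a tensor product. -/
lemma tensor_of_lines (ha : 0 < a) (hb : 0 < b)
    (h : Matrix (Fin a) (Fin b) F ≃ₗ[F] Matrix (Fin a) (Fin b) F)
    (hl : ∀ w : Fin b → F, w ≠ 0 → ∃ v, (line (a := a) w).map h.toLinearMap = line v) :
    ∃ (A : Matrix (Fin a) (Fin a) F) (B : Matrix (Fin b) (Fin b) F), ∀ X, h X = A * X * B := by
  classical
  set e : Fin b → (Fin b → F) := fun j => Pi.single j 1 with he
  have he0 : ∀ j, e j ≠ 0 := fun j h0 => one_ne_zero (by simpa [he] using congrFun h0 j : (1 : F) = 0)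
  choose v hv using fun j => hl (e j) (he0 j)
  have hv0 : ∀ j, v j ≠ 0 := fun j h0 => by
    have h1 := congrArg (fun S : Submodule F (Matrix (Fin a) (Fin b) F) => finrank F S) (hv j)
    simp only [LinearEquiv.finrank_map_eq, finrank_line (he0 j)] at h1
    have h2 : colMap (a := a) (0 : Fin b → F) = 0 := LinearMap.ext fun x => by
      ext i k; simp [colMap_apply, vecMulVec_apply]
    rw [h0, line, h2, LinearMap.range_zero, finrank_bot] at h1
    omega
  have hβ : ∀ j, ∃ β : (Fin a → F) →ₗ[F] (Fin a → F), ∀ u, h (colMap (e j) u) = colMap (v j) (β u) := by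
    intro j
    obtain ⟨η, hη⟩ := exists_dot_eq_one (hv0 j)
    refine ⟨rowMap η ∘ₗ h.toLinearMap ∘ₗ colMap (e j), fun u => ?_⟩
    obtain ⟨y, hy⟩ : h (colMap (e j) u) ∈ line (a := a) (v j) :=
      hv j ▸ Submodule.mem_map_of_mem (show colMap (e j) u ∈ line (e j) from ⟨u, rfl⟩)
    show h (colMap (e j) u) = colMap (v j) (rowMap η (h (colMap (e j) u)))
    rw [← hy, rowMap_colMap, hη, one_smul]
  choose β hβ using hβ
  set j₀ : Fin b := ⟨0, hb⟩
  set u₁ : Fin a → F := Pi.single ⟨0, ha⟩ 1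
  have hu₁ : u₁ ≠ 0 := fun h0 => one_ne_zero (by simpa [u₁] using congrFun h0 ⟨0, ha⟩ : (1 : F) = 0)
  have hβinj : ∀ j u, β j u = 0 → u = 0 := fun j u h0 => colMap_injective (he0 j)
    ((h.injective (by rw [hβ, h0, map_zero, map_zero])).trans (map_zero (colMap (e j))).symm)
  have hc : ∀ j, ∃ c : F, ∀ u, β j u = c • β j₀ u := by
    intro j
    rcases eq_or_ne j j₀ with rfl | hj
    · exact ⟨1, fun u => (one_smul _ _).symm⟩
    have hne : v j ∉ F ∙ v j₀ := fun hm => by
      obtain ⟨t, ht⟩ := Submodule.mem_span_singleton.1 hm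
      have ht0 : t ≠ 0 := fun h0 => hv0 j (by rw [← ht, h0, zero_smul])
      obtain ⟨x, hx⟩ : colMap (v j₀) (t • β j u₁) ∈ (line (a := a) (e j₀)).map h.toLinearMap := by
        rw [hv]; exact ⟨_, rfl⟩
      have h1 : h x = h (colMap (e j) u₁) := by
        rw [hβ, ← ht, colMap_smul_right, ← map_smul]; exact hx.2
      obtain ⟨y, hy⟩ := hx.1
      have h2 : colMap (e j₀) y = colMap (e j) u₁ := hy.trans (h.injective h1)
      have h3 := congrArg (rowMap (Pi.single j 1)) h2
      rw [rowMap_colMap, rowMap_colMap] at h3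
      simp [he, hj] at h3
      exact hu₁ h3.symm
    obtain ⟨η, hη1, hη0⟩ := exists_dot_pair (hv0 j₀) hne
    obtain ⟨η', hη'1, hη'0⟩ := exists_dot_pair (η := v j₀) (hv0 j) (fun hm => hne (by
      obtain ⟨t, ht⟩ := Submodule.mem_span_singleton.1 hm
      have ht0 : t ≠ 0 := fun h0 => hv0 j₀ (by rw [← ht, h0, zero_smul])
      exact Submodule.mem_span_singleton.2 ⟨t⁻¹, by rw [← ht, inv_smul_smul₀ ht0]⟩))
    rw [dotProduct_comm] at hη1 hη0 hη'1 hη'0
    obtain ⟨w, hw⟩ := hl (e j₀ + e j) (fun h0 => one_ne_zero (by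
      simpa [he, hj] using congrFun h0 j : (1 : F) = 0))
    have hsum : ∀ u, ∃ y, colMap w y = colMap (v j₀) (β j₀ u) + colMap (v j) (β j u) := fun u => by
      obtain ⟨y, hy⟩ : h (colMap (e j₀ + e j) u) ∈ line (a := a) w :=
        hw ▸ Submodule.mem_map_of_mem (show colMap (e j₀ + e j) u ∈ line _ from ⟨u, rfl⟩)
      refine ⟨y, hy.trans ?_⟩
      rw [show colMap (e j₀ + e j) u = colMap (e j₀) u + colMap (e j) u from
        vecMulVec_add u (e j₀) (e j), map_add, hβ, hβ]
    have hrows : ∀ u, ∃ y, (w ⬝ᵥ η) • y = β j u ∧ (w ⬝ᵥ η') • y = β j₀ u := fun u => by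
      obtain ⟨y, hy⟩ := hsum u
      have h1 := congrArg (rowMap η) hy
      have h2 := congrArg (rowMap η') hy
      simp only [map_add, rowMap_colMap, hη1, hη0, hη'1, hη'0, one_smul, zero_smul, zero_add,
        add_zero] at h1 h2
      exact ⟨y, h1, h2⟩
    have hwη' : w ⬝ᵥ η' ≠ 0 := fun h0 => by
      obtain ⟨y, -, h2⟩ := hrows u₁
      rw [h0, zero_smul] at h2
      exact hu₁ (hβinj j₀ u₁ h2.symm)
    refine ⟨(w ⬝ᵥ η) / (w ⬝ᵥ η'), fun u => ?_⟩
    obtain ⟨y, h1, h2⟩ := hrows u
    rw [← h1, ← h2, smul_smul, div_mul_cancel₀ _ hwη']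
  choose c hc using hc
  refine ⟨LinearMap.toMatrix' (β j₀), Matrix.of fun j k => c j * v j k, fun X => ?_⟩
  have hX' : X = ∑ j, colMap (e j) (fun i => X i j) := by
    ext i k
    rw [Matrix.sum_apply, Finset.sum_eq_single k]
    · simp [he, colMap_apply, vecMulVec_apply]
    · intro j _ hj; simp [he, colMap_apply, vecMulVec_apply, hj.symm]
    · simp
  conv_lhs => rw [hX', map_sum]
  ext i k
  rw [Matrix.sum_apply, Matrix.mul_apply]
  refine Finset.sum_congr rfl fun j _ => ?_
  rw [Matrix.of_apply, hβ, hc, colMap_apply, vecMulVec_apply, Pi.smul_apply, smul_eq_mul,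
    show (LinearMap.toMatrix' (β j₀) * X) i j = β j₀ (fun i => X i j) i by
      rw [← LinearMap.toMatrix'_mulVec (β j₀)]; rfl]
  ring

variable {ι : Type} [Fintype ι] [DecidableEq ι]

/-- Vectors as matrices. -/
noncomputable def toMat (e : ι ≃ Fin a × Fin b) (P : GL ι F) :
    (ι → F) ≃ₗ[F] Matrix (Fin a) (Fin b) F where
  toFun x := fun i j => (((P⁻¹ : GL ι F) : Matrix ι ι F) *ᵥ x) (e.symm (i, j))
  map_add' x y := by ext i j; simp only [mulVec_add]; rfl
  map_smul' c x := by ext i j; simp only [mulVec_smul]; rfl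
  invFun X := (P : Matrix ι ι F) *ᵥ fun k => X (e k).1 (e k).2
  left_inv x := by simp
  right_inv X := by ext i j; simp

/-- The action of `GL` on matrices. -/
noncomputable def toAct (e : ι ≃ Fin a × Fin b) (P : GL ι F) :
    GL ι F →* (Matrix (Fin a) (Fin b) F ≃ₗ[F] Matrix (Fin a) (Fin b) F) where
  toFun g := ((toMat e P).symm.trans ((Matrix.GeneralLinearGroup.toLin.trans
    (LinearMap.GeneralLinearGroup.generalLinearEquiv F (ι → F))) g)).trans (toMat e P)
  map_one' := by ext X; simp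
  map_mul' g h := by ext X; simp

lemma toAct_apply (e : ι ≃ Fin a × Fin b) (P g : GL ι F) (X : Matrix (Fin a) (Fin b) F) :
    toAct e P g X = toMat e P ((g : Matrix ι ι F) *ᵥ (toMat e P).symm X) := by
  simp [toAct, Matrix.GeneralLinearGroup.toLin]

lemma toAct_injective (e : ι ≃ Fin a × Fin b) (P : GL ι F) : Function.Injective (toAct e P) := by
  intro g h hgh
  refine gl_ext_mulVec fun x => (toMat e P).injective ?_
  have := LinearEquiv.congr_fun hgh (toMat e P x)
  rwa [toAct_apply, toAct_apply, LinearEquiv.symm_apply_apply] at this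

/-- The element of the decomposition group of a pair of matrices. -/
noncomputable def tensorElt (e : ι ≃ Fin a × Fin b) (P : GL ι F) (A : GL (Fin a) F)
    (B : GL (Fin b) F) : GL ι F :=
  (MulAut.conj P).toMonoidHom (glReindex e.symm (glKron A B))

lemma tensorElt_mem (e : ι ≃ Fin a × Fin b) (P : GL ι F) (A : GL (Fin a) F) (B : GL (Fin b) F) :
    tensorElt e P A B ∈ tensorProductSubgroup a b e P :=
  ⟨_, ⟨_, ⟨A, B, rfl⟩, rfl⟩, rfl⟩

lemma toAct_tensorElt (e : ι ≃ Fin a × Fin b) (P : GL ι F) (A : GL (Fin a) F) (B : GL (Fin b) F)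
    (X : Matrix (Fin a) (Fin b) F) :
    toAct e P (tensorElt e P A B) X =
      (A : Matrix (Fin a) (Fin a) F) * X * (B : Matrix (Fin b) (Fin b) F)ᵀ := by
  rw [toAct_apply, tensorElt, gl_conj_val, glReindex_apply]
  have key : ∀ y : ι → F, ∀ i j, (Matrix.reindexAlgEquiv F F e.symm
      ((glKron A B : GL (Fin a × Fin b) F) : Matrix _ _ F) *ᵥ y) (e.symm (i, j)) =
      ((A : Matrix (Fin a) (Fin a) F) * (Matrix.of fun i j => y (e.symm (i, j))) *
        (B : Matrix (Fin b) (Fin b) F)ᵀ) i j := by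
    intro y i j
    simp only [Matrix.mulVec, dotProduct, Matrix.reindexAlgEquiv_apply, Matrix.reindex_apply,
      Matrix.submatrix_apply, Equiv.symm_symm, Equiv.apply_symm_apply, glKron, Matrix.mul_apply,
      Matrix.kroneckerMap_apply, Matrix.transpose_apply, Matrix.of_apply, Finset.sum_mul]
    rw [← Equiv.sum_comp e.symm, Fintype.sum_prod_type, Finset.sum_comm]
    refine Finset.sum_congr rfl fun l _ => Finset.sum_congr rfl fun k _ => ?_
    rw [Equiv.apply_symm_apply]
    ring
  ext i j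
  show (((P⁻¹ : GL ι F) : Matrix ι ι F) *ᵥ (((P : Matrix ι ι F) *
    Matrix.reindexAlgEquiv F F e.symm ((glKron A B : GL (Fin a × Fin b) F) : Matrix _ _ F) *
    ((P⁻¹ : GL ι F) : Matrix ι ι F)) *ᵥ ((P : Matrix ι ι F) *ᵥ fun k => X (e k).1 (e k).2)))
      (e.symm (i, j)) = _
  rw [← Matrix.mulVec_mulVec, ← Matrix.mulVec_mulVec, gl_inv_mulVec, gl_inv_mulVec, key]
  simp only [Equiv.apply_symm_apply]
  rfl

lemma det_tensorElt (e : ι ≃ Fin a × Fin b) (P : GL ι F) (A : GL (Fin a) F) (B : GL (Fin b) F) :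
    (tensorElt e P A B : Matrix ι ι F).det =
      (A : Matrix (Fin a) (Fin a) F).det ^ b * (B : Matrix (Fin b) (Fin b) F).det ^ a := by
  rw [tensorElt, gl_conj_val, Matrix.det_mul, Matrix.det_mul, glReindex_apply,
    Matrix.det_reindexAlgEquiv]
  show _ * ((A : Matrix (Fin a) (Fin a) F) ⊗ₖ (B : Matrix (Fin b) (Fin b) F)).det * _ = _
  rw [Matrix.det_kronecker, Fintype.card_fin, Fintype.card_fin, mul_comm, ← mul_assoc,
    ← Matrix.det_mul, ← Units.val_mul, inv_mul_cancel]
  simp

/-- Tensor decomposition stabilisers with `2 ≤ a < b` are maximal in `SL`. -/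
theorem tensorProduct_maximal [Finite F] (ha : 2 ≤ a) (hab : a < b)
    (hbig : (∃ t : F, t ≠ 0 ∧ t ≠ 1) ∨ 3 ≤ a) (e : ι ≃ Fin a × Fin b) (P : GL ι F) :
    IsMaximalIn (specialLinear ι F)
      (tensorProductSubgroup a b e P ⊓ specialLinear ι F) := by
  classical
  haveI : Nontrivial ι := by
    rw [← Fintype.one_lt_card_iff_nontrivial, Fintype.card_congr e, Fintype.card_prod,
      Fintype.card_fin, Fintype.card_fin]
    nlinarith
  refine ⟨lt_of_le_not_ge inf_le_right fun hle => not_le_tensorProductSubgroup (by omega) (by omega)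
    e P (hle.trans inf_le_left), fun M hM hMS => ?_⟩
  set G := M.map (toAct e P) with hG
  have hin : ∀ (A : GL (Fin a) F) (B : GL (Fin b) F), A ∈ specialLinear (Fin a) F →
      B ∈ specialLinear (Fin b) F → toAct e P (tensorElt e P A B) ∈ G := fun A B hA hB => by
    refine ⟨_, hM ⟨tensorElt_mem e P A B, ?_⟩, rfl⟩
    show tensorElt e P A B ∈ specialLinear ι F
    rw [mem_specialLinear_iff, det_tensorElt, mem_specialLinear_iff.1 hA,
      mem_specialLinear_iff.1 hB, one_pow, one_pow, mul_one]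
  have hF : Factors G := by
    refine ⟨fun g u hgu => ⟨_, hin (transv g u hgu) 1 (transv_mem_specialLinear g u hgu)
      (one_mem _), fun X => ?_⟩, fun η w hw => ?_⟩
    · rw [toAct_tensorElt, Units.val_one, Matrix.transpose_one, Matrix.mul_one]
      show LinearMap.toMatrix' (LinearMap.id + g.smulRight u) * X = X + leftMap (g.smulRight u) X
      rw [map_add, LinearMap.toMatrix'_id, Matrix.add_mul, Matrix.one_mul]
      rfl
    · have h0 : dotProductBilin F F η w = 0 := by
        show η ⬝ᵥ w = 0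
        rw [dotProduct_comm, hw]
      refine ⟨_, hin 1 (transv (dotProductBilin F F η) w h0) (one_mem _)
        (transv_mem_specialLinear _ _ _), fun X => ?_⟩
      rw [toAct_tensorElt, Units.val_one, Matrix.one_mul]
      show X * (LinearMap.toMatrix' (LinearMap.id + (dotProductBilin F F η).smulRight w))ᵀ =
        X + vecMulVec (X *ᵥ η) w
      rw [map_add, LinearMap.toMatrix'_id, Matrix.transpose_add, Matrix.transpose_one,
        Matrix.mul_add, Matrix.mul_one, ← Matrix.mul_vecMulVec]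
      congr 2
      ext i k
      simp [LinearMap.toMatrix'_apply, vecMulVec_apply, dotProduct_single, mul_comm]
  by_cases hnot : ∃ h ∈ G, ∃ w : Fin b → F, w ≠ 0 ∧
      ∀ v, (line (a := a) w).map h.toLinearMap ≠ line v
  · right
    obtain ⟨v₀, hv₀, hroot⟩ := exists_rootParam hF ha hab hbig hnot
    refine le_antisymm hMS (specialLinear_le_of_transv_mem fun φ w hw => ?_)
    obtain ⟨g, hg, hgx⟩ := mem_rk1_of_isRootParam hF ha (by omega) hv₀ hroot
      (φ ∘ₗ (toMat e P).symm.toLinearMap) (toMat e P w) (by simpa using hw)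
    obtain ⟨m, hm, rfl⟩ := hg
    have heq : transv φ w hw = m := by
      refine gl_ext_mulVec fun x => (toMat e P).injective ?_
      have := hgx (toMat e P x)
      rw [toAct_apply, LinearEquiv.symm_apply_apply] at this
      rw [this, transv_mulVec, map_add, map_smul]
      simp
    rw [heq]
    exact hm
  left
  push Not at hnot
  refine le_antisymm (le_inf (fun g hg => ?_) hMS) hM
  obtain ⟨A, B, hAB⟩ := tensor_of_lines (by omega) (by omega) (toAct e P g)
    (hnot _ ⟨g, hg, rfl⟩)
  have hdA : A.det ≠ 0 := fun h0 => by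
    obtain ⟨u, hu, hAu⟩ := Matrix.exists_mulVec_eq_zero_iff.2 h0
    obtain ⟨i, hi⟩ := Function.ne_iff.1 hu
    have h1 : toAct e P g (vecMulVec u (Pi.single ⟨0, by omega⟩ 1)) = toAct e P g 0 := by
      rw [hAB, hAB, Matrix.mul_vecMulVec, hAu]
      simp [Matrix.zero_vecMulVec]
    have h2 := congrFun (congrFun ((toAct e P g).injective h1) i) ⟨0, by omega⟩
    exact hi (by simpa [vecMulVec_apply] using h2)
  have hdB : B.det ≠ 0 := fun h0 => by
    obtain ⟨u, hu, hBu⟩ := Matrix.exists_vecMul_eq_zero_iff.2 h0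
    obtain ⟨i, hi⟩ := Function.ne_iff.1 hu
    have h1 : toAct e P g (vecMulVec (Pi.single ⟨0, by omega⟩ 1) u) = toAct e P g 0 := by
      rw [hAB, hAB, Matrix.mul_assoc, Matrix.vecMulVec_mul, hBu]
      ext i j
      simp [Matrix.mul_apply, vecMulVec_apply]
    have h2 := congrFun (congrFun ((toAct e P g).injective h1) ⟨0, by omega⟩) i
    exact hi (by simpa [vecMulVec_apply] using h2)
  have hge : g = tensorElt e P (Matrix.GeneralLinearGroup.mkOfDetNeZero A hdA)
      (Matrix.GeneralLinearGroup.mkOfDetNeZero Bᵀ (by rwa [Matrix.det_transpose])) :=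
    toAct_injective e P (LinearEquiv.ext fun X => by
      rw [toAct_tensorElt, hAB]
      exact congrArg (A * X * ·) (Matrix.transpose_transpose B).symm)
  rw [hge]
  exact tensorElt_mem e P _ _

end Cfsg.Agent.MaxSub.TensorMax
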