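import Cfsg.Agent.MaxSub.TensorMax.Root

/-!
The rank-one parameters generate all transvections.
-/

set_option autoImplicit false

namespace Cfsg.Agent.MaxSub.TensorMax

open Module Matrix Cfsg.Agent.MaxSub.ExtField

variable {F : Type*} [Field F] {a b : ℕ}
  {G : Subgroup (Matrix (Fin a) (Fin b) F ≃ₗ[F] Matrix (Fin a) (Fin b) F)}

/-- The commutator of two transvections. -/
lemma mem_rk1_comm {φ φ' : Matrix (Fin a) (Fin b) F →ₗ[F] F} {p p' : Matrix (Fin a) (Fin b) F}
    (h : Mem G (rk1 φ p)) (h' : Mem G (rk1 φ' p')) (hp : φ p = 0) (hp' : φ' p' = 0)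
    (hφ' : φ' p = 0) {c : F} (hc : φ p' = c) : Mem G (rk1 (c • φ') p) := by
  have h1 := mem_conj h' h fun X => by simp [hp]
  have h1' : Mem G (rk1 φ' p' + rk1 (c • φ') p) := h1.congr fun X => by
    simp [hφ', hc, smul_smul, mul_comm]
  exact (h1'.add (h'.neg fun X => by simp [hp']) fun X => by simp [hp', map_neg]).congr fun X => by
    simp

variable (hG : Factors G)
include hG

/-- Root parameters move to every line. -/
lemma isRootParam_move (hb : 3 ≤ b) {v v' : Fin b → F} (hv : v ≠ 0) (hv' : v' ≠ 0)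
    (h : IsRootParam G v) : IsRootParam G v' := by
  obtain ⟨f, u, hu, hf, hfu, hP⟩ := h
  refine ⟨f, u, hu, hf, hfu, ?_⟩
  by_cases hd : v' ∈ F ∙ v
  · obtain ⟨c, rfl⟩ := Submodule.mem_span_singleton.1 hd
    have hc : c ≠ 0 := fun h0 => hv' (by rw [h0, zero_smul])
    intro η hη
    rw [smul_dotProduct, smul_eq_mul] at hη
    exact ((hP.smul c) η ((mul_eq_zero.1 hη).resolve_left hc)).congr fun X => by
      simp [colMap_smul_right, map_smul, smul_smul, mul_comm]
  have hw0 : v' - v ≠ 0 := fun h0 => hd (by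
    rw [sub_eq_zero.1 h0]; exact Submodule.mem_span_singleton_self v)
  have hvw : v ∉ F ∙ (v' - v) := fun hm => hd (by
    obtain ⟨c, hc⟩ := Submodule.mem_span_singleton.1 hm
    have hc0 : c ≠ 0 := fun h0 => hv (by rw [← hc, h0, zero_smul])
    refine Submodule.mem_span_singleton.2 ⟨c⁻¹ + 1, ?_⟩
    rw [add_smul, one_smul]
    nth_rewrite 1 [← hc]
    rw [inv_smul_smul₀ hc0, sub_add_cancel])
  obtain ⟨η, hη1, hη0⟩ := exists_dot_pair hw0 hvw
  rw [dotProduct_comm] at hη1 hη0
  obtain ⟨ν, hν, hνne⟩ := exists_perp_not_mem (v := v) hb η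
  set ν' := ν - ((v' - v) ⬝ᵥ ν) • η with hν'
  have hv'η : v' ⬝ᵥ η = 1 := by
    have := hη0; rw [sub_dotProduct, hη1, sub_eq_zero] at this; exact this
  have hv'ν' : v' ⬝ᵥ ν' = 0 := by
    rw [hν', dotProduct_sub, dotProduct_smul, hv'η, sub_dotProduct, hν]
    simp
  have hν'0 : ν' ≠ 0 := fun h0 => hνne (by
    rw [hν', sub_eq_zero] at h0
    exact Submodule.mem_span_singleton.2 ⟨_, h0.symm⟩)
  refine params_of_one hG hb hv'ν' hν'0 ?_
  refine (mem_conj (hP ν hν) (hG.right η (v' - v) hη0) fun X => by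
    simp [rowMap_colMap, hη0]).congr fun X => ?_
  have e : ∀ y : Fin a → F, colMap v y + colMap (v' - v) y = colMap v' y := fun y => by
    simp [colMap_apply, ← vecMulVec_add]
  have e' : rowMap ν (X - colMap (v' - v) (rowMap η X)) = rowMap ν' X := by
    rw [map_sub, rowMap_colMap, hν', sub_eq_add_neg ν, rowMap_add, ← neg_smul, rowMap_smul,
      neg_smul, ← sub_eq_add_neg]
  show rootMap (f.smulRight u) ν v (X - colMap (v' - v) (rowMap η X)) +
    colMap (v' - v) (rowMap η (rootMap (f.smulRight u) ν v (X - colMap (v' - v) (rowMap η X)))) = _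
  simp only [rootMap, LinearMap.comp_apply, e', rowMap_colMap, hη1, one_smul, e]

/-- All transvections from root parameters at one line. -/
theorem mem_rk1_of_isRootParam (ha : 2 ≤ a) (hb : 3 ≤ b) {v₀ : Fin b → F} (hv₀ : v₀ ≠ 0)
    (h : IsRootParam G v₀) (Φ : Matrix (Fin a) (Fin b) F →ₗ[F] F) (p : Matrix (Fin a) (Fin b) F)
    (hΦ : Φ p = 0) : Mem G (rk1 Φ p) := by
  classical
  have base : ∀ (f : (Fin a → F) →ₗ[F] F) (u : Fin a → F) (ψ v : Fin b → F), v ≠ 0 → f u = 0 →
      v ⬝ᵥ ψ = 0 → Mem G (rk1 (f ∘ₗ rowMap ψ) (colMap v u)) := fun f u ψ v hv hfu hvψ =>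
    ((params_rank_one hG (isRootParam_move hG hb hv₀ hv h) f u hfu) ψ hvψ).congr fun X => by
      simp [map_smul]
  have val : ∀ (f : (Fin a → F) →ₗ[F] F) (u : Fin a → F) (ψ v : Fin b → F),
      (f ∘ₗ rowMap ψ) (colMap v u) = (v ⬝ᵥ ψ) * f u := fun f u ψ v => by
    simp [rowMap_colMap]
  have stage2 : ∀ (f : (Fin a → F) →ₗ[F] F) (u : Fin a → F) (ψ v : Fin b → F), v ≠ 0 →
      v ⬝ᵥ ψ = 0 → Mem G (rk1 (f ∘ₗ rowMap ψ) (colMap v u)) := by
    intro f u ψ v hv hvψ
    by_cases hfu : f u = 0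
    · exact base f u ψ v hv hfu hvψ
    have hu : u ≠ 0 := fun h0 => hfu (by rw [h0, map_zero])
    obtain ⟨u', hu', hu'0⟩ := Submodule.exists_mem_ne_zero_of_ne_bot
      (LinearMap.ker_ne_bot_of_finrank_lt (f := f) (by simp; omega))
    rw [LinearMap.mem_ker] at hu'
    have hne : u' ∉ F ∙ u := fun hm => hu'0 (by
      obtain ⟨c, rfl⟩ := Submodule.mem_span_singleton.1 hm
      simp [hfu] at hu'
      rw [hu', zero_smul])
    obtain ⟨f₀, hf₀u, hf₀u'⟩ := exists_dual_vectors hu hne
    obtain ⟨v', hv'ψ, hv'v⟩ := exists_perp_not_mem (v := ψ) hb v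
    rw [dotProduct_comm] at hv'ψ
    have hv'0 : v' ≠ 0 := fun h0 => hv'v (h0 ▸ zero_mem _)
    obtain ⟨ψ₀, hψ₀v', hψ₀v⟩ := exists_dot_pair hv hv'v
    rw [dotProduct_comm] at hψ₀v' hψ₀v
    exact (mem_rk1_comm (c := 1) (base f₀ u ψ₀ v hv hf₀u hψ₀v) (base f u' ψ v' hv'0 hu' hv'ψ)
      (by rw [val, hf₀u, mul_zero]) (by rw [val, hu', mul_zero]) (by rw [val, hvψ, zero_mul])
      (by rw [val, hψ₀v', hf₀u', one_mul])).congr fun X => by simp
  have stage3 : ∀ (f : (Fin a → F) →ₗ[F] F) (u : Fin a → F) (ψ v : Fin b → F), v ≠ 0 →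
      f u = 0 → Mem G (rk1 (f ∘ₗ rowMap ψ) (colMap v u)) := by
    intro f u ψ v hv hfu
    rcases eq_or_ne u 0 with rfl | hu
    · exact mem_zero.congr fun X => by simp
    obtain ⟨v', hv'ψ, hv'v⟩ := exists_perp_not_mem (v := ψ) hb v
    rw [dotProduct_comm] at hv'ψ
    have hv'0 : v' ≠ 0 := fun h0 => hv'v (h0 ▸ zero_mem _)
    obtain ⟨ψ₀, hψ₀v', hψ₀v⟩ := exists_dot_pair hv hv'v
    rw [dotProduct_comm] at hψ₀v' hψ₀v
    obtain ⟨g, hgu, -⟩ := Submodule.exists_dual_map_eq_bot_of_notMem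
      (p := (⊥ : Submodule F (Fin a → F))) (by simpa using hu) inferInstance
    set f₀ := (g u)⁻¹ • g with hf₀
    have hf₀u : f₀ u = 1 := by simp [hf₀, hgu]
    exact (mem_rk1_comm (c := 1) (stage2 f₀ u ψ₀ v hv hψ₀v) (base f u ψ v' hv'0 hfu hv'ψ)
      (by rw [val, hψ₀v, zero_mul]) (by rw [val, hfu, mul_zero]) (by rw [val, hfu, mul_zero])
      (by rw [val, hψ₀v', hf₀u, one_mul])).congr fun X => by simp
  -- pure centres
  have pure : ∀ (u : Fin a → F) (v : Fin b → F), v ≠ 0 → u ≠ 0 →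
      ∀ Φ : Matrix (Fin a) (Fin b) F →ₗ[F] F, Φ (colMap v u) = 0 →
      Mem G (rk1 Φ (colMap v u)) := by
    intro u v hv hu Φ hΦ
    obtain ⟨g, hgu, -⟩ := Submodule.exists_dual_map_eq_bot_of_notMem
      (p := (⊥ : Submodule F (Fin a → F))) (by simpa using hu) inferInstance
    set f₀ := (g u)⁻¹ • g with hf₀
    have hf₀u : f₀ u = 1 := by simp [hf₀, hgu]
    set fj : Fin b → (Fin a → F) →ₗ[F] F := fun j => Φ ∘ₗ colMap (Pi.single j 1) with hfj
    set ψ : Fin b → F := fun j => fj j u with hψ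
    have hexp : ∀ X : Matrix (Fin a) (Fin b) F, Φ X = ∑ j, fj j (fun i => X i j) := by
      intro X
      have hX' : X = ∑ j, colMap (Pi.single j (1 : F)) (fun i => X i j) := by
        ext i k
        rw [Matrix.sum_apply, Finset.sum_eq_single k]
        · simp [colMap_apply, vecMulVec_apply]
        · intro j _ hj; simp [colMap_apply, vecMulVec_apply, hj.symm]
        · simp
      conv_lhs => rw [hX', map_sum]
      rfl
    have hψv : v ⬝ᵥ ψ = 0 := by
      rw [← hΦ, hexp]
      refine Finset.sum_congr rfl fun j _ => ?_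
      rw [show (fun i => colMap v u i j) = v j • u from funext fun i => by
        simp [colMap_apply, vecMulVec_apply, mul_comm]]
      simp [hψ]
    let P : (Matrix (Fin a) (Fin b) F →ₗ[F] F) → Prop := fun φ =>
      φ (colMap v u) = 0 ∧ Mem G (rk1 φ (colMap v u))
    have hPadd : ∀ φ φ', P φ → P φ' → P (φ + φ') := fun φ φ' h h' =>
      ⟨by simp [h.1, h'.1], (h.2.add h'.2 fun X => by simp [h.1]).congr fun X => by simp [add_smul]⟩
    have hsum : P (∑ j, ((fj j - ψ j • f₀) ∘ₗ rowMap (Pi.single j 1))) := by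
      refine Finset.sum_induction _ P hPadd ⟨by simp, mem_zero.congr fun X => by simp⟩ fun j _ => ?_
      have h0 : (fj j - ψ j • f₀) u = 0 := by simp [hψ, hf₀u]
      exact ⟨by rw [val, h0, mul_zero], stage3 _ u _ v hv h0⟩
    have htot := hPadd _ _ hsum ⟨by rw [val, hψv, zero_mul], stage2 f₀ u ψ v hv hψv⟩
    refine htot.2.congr fun X => ?_
    simp only [LinearMap.smulRight_apply]
    congr 1
    rw [hexp, LinearMap.add_apply, LinearMap.sum_apply, LinearMap.comp_apply, rowMap_apply,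
      mulVec_eq_sum, map_sum, ← Finset.sum_add_distrib]
    refine Finset.sum_congr rfl fun j _ => ?_
    rw [LinearMap.comp_apply, rowMap_single, op_smul_eq_smul, map_smul,
      show Xᵀ j = fun i => X i j from rfl]
    simp [mul_comm]
  -- all centres
  let C : Submodule F (Matrix (Fin a) (Fin b) F) :=
    { carrier := {p | ∀ φ : Matrix (Fin a) (Fin b) F →ₗ[F] F, φ p = 0 → Mem G (rk1 φ p)}
      zero_mem' := fun φ _ => mem_zero.congr fun X => by simp
      smul_mem' := fun c p hp φ hφ => by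
        rcases eq_or_ne c 0 with rfl | hc
        · exact mem_zero.congr fun X => by simp
        · exact (hp (c • φ) (by simpa [hc] using hφ)).congr fun X => by simp [smul_smul, mul_comm]
      add_mem' := fun {p q} hp hq φ hφ => by
        by_cases hd : p ∈ F ∙ q
        · obtain ⟨c, rfl⟩ := Submodule.mem_span_singleton.1 hd
          rcases eq_or_ne (c + 1) 0 with hc | hc
          · refine mem_zero.congr fun X => ?_
            have : c • q + q = 0 := by
              calc c • q + q = (c + 1) • q := by rw [add_smul, one_smul]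
                _ = 0 := by rw [hc, zero_smul]
            simp [this]
          · refine (hq ((c + 1) • φ) ?_).congr fun X => by
              simp [add_smul, smul_smul, mul_comm]
            simp only [map_add, map_smul, smul_eq_mul] at hφ
            simp only [LinearMap.smul_apply, smul_eq_mul]
            linear_combination hφ
        obtain ⟨g, hgp, hg⟩ := Submodule.exists_dual_map_eq_bot_of_notMem hd inferInstance
        set g₀ := (g p)⁻¹ • g with hg₀
        have hg₀q : g₀ q = 0 := by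
          simp [hg₀, (Submodule.eq_bot_iff _).1 hg _ ⟨q, Submodule.mem_span_singleton_self q, rfl⟩]
        have hg₀p : g₀ p = 1 := by simp [hg₀, hgp]
        have h1 := mem_conj (hp (φ ∘ₗ (LinearMap.id + rk1 g₀ q)) (by simpa [hg₀p] using hφ))
          (hq g₀ hg₀q) fun X => by simp [hg₀q]
        exact h1.congr fun X => by
          simp only [LinearMap.comp_apply, LinearMap.add_apply, LinearMap.sub_apply,
            LinearMap.id_apply, LinearMap.smulRight_apply, map_sub, map_add, map_smul, hg₀p,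
            hg₀q, smul_eq_mul, mul_zero, sub_zero, mul_one]
          module }
  suffices hC : p ∈ C from hC Φ hΦ
  rw [Matrix.matrix_eq_sum_single p]
  refine Submodule.sum_mem C fun i _ => Submodule.sum_mem C fun j _ => ?_
  rw [show Matrix.single i j (p i j) = p i j • colMap (Pi.single j (1 : F)) (Pi.single i 1) by
    ext k l
    rcases eq_or_ne i k with rfl | h1 <;> rcases eq_or_ne j l with rfl | h2 <;>
      simp [colMap_apply, vecMulVec_apply, Matrix.single_apply, Pi.single_apply, *, Ne.symm]]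
  refine C.smul_mem _ fun φ hφ => pure _ _ ?_ ?_ φ hφ
  · exact fun h0 => one_ne_zero (by simpa using congrFun h0 j : (1 : F) = 0)
  · exact fun h0 => one_ne_zero (by simpa using congrFun h0 i : (1 : F) = 0)

end Cfsg.Agent.MaxSub.TensorMax
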