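import Cfsg.Agent.MaxSub.TensorMax.Root

/-!
A square-zero element of rank at most `dim U` stabilising a line gives a root parameter.
-/

set_option autoImplicit false

namespace Cfsg.Agent.MaxSub.TensorMax

open Module Matrix Cfsg.Agent.MaxSub.ExtField

variable {F : Type*} [Field F] {a b : ℕ}
  {G : Subgroup (Matrix (Fin a) (Fin b) F ≃ₗ[F] Matrix (Fin a) (Fin b) F)}

/-- A matrix killed by the functionals vanishing at `v` lies on the line of `v`. -/
lemma eq_colMap_of_perp {v ℓ : Fin b → F} (hℓ : v ⬝ᵥ ℓ = 1) {Z : Matrix (Fin a) (Fin b) F}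
    (h : ∀ φ, v ⬝ᵥ φ = 0 → rowMap φ Z = 0) : Z = colMap v (rowMap ℓ Z) := by
  classical
  ext i j
  have h1 := congrFun (h (Pi.single j 1 - v j • ℓ) (by
    rw [dotProduct_sub, dotProduct_single, dotProduct_smul, hℓ]; simp)) i
  simp only [rowMap_apply, mulVec_sub, mulVec_smul, Pi.sub_apply, Pi.smul_apply, smul_eq_mul,
    Pi.zero_apply, mulVec_single_one, col_apply] at h1
  simp only [colMap_apply, vecMulVec_apply, rowMap_apply]
  linear_combination h1

/-- An element of `G` stabilising a line, of small rank, gives a root parameter. -/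
theorem isRootParam_of_stab (hG : Factors G) (ha : 2 ≤ a) (hab : a < b)
    (hbig : (∃ t : F, t ≠ 0 ∧ t ≠ 1) ∨ 3 ≤ a) {v : Fin b → F} (hv : v ≠ 0)
    {A : Matrix (Fin a) (Fin b) F →ₗ[F] Matrix (Fin a) (Fin b) F} (hA : Mem G A)
    (hA2 : ∀ X, A (A X) = 0) (hrank : finrank F (LinearMap.range A) ≤ a)
    (hrange : ∀ w : Fin b → F, ¬ LinearMap.range A ≤ line w)
    (hAv : ∀ u, A (colMap v u) ∈ line v) : IsRootParam G v := by
  classical
  have hb : 3 ≤ b := by omega
  obtain ⟨ℓ, hℓ⟩ := exists_dot_eq_one hv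
  set α : (Fin a → F) →ₗ[F] (Fin a → F) := rowMap ℓ ∘ₗ A ∘ₗ colMap v with hαd
  have hα : ∀ u, A (colMap v u) = colMap v (α u) := fun u => by
    obtain ⟨y, hy⟩ := hAv u
    rw [hαd, LinearMap.comp_apply, LinearMap.comp_apply, ← hy, rowMap_colMap, hℓ, one_smul]
  have hα2 : ∀ u, α (α u) = 0 := fun u => colMap_injective hv (by
    rw [← hα, ← hα, hA2, map_zero])
  by_contra hcon
  -- the conjugates of root elements by `1 + A` are scalar
  have hscal : ∀ φ : Fin b → F, v ⬝ᵥ φ = 0 → ∃ φ' : Fin b → F, ∀ X,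
      rowMap φ (X - A X) + α (rowMap φ (X - A X)) = rowMap φ' X := by
    intro φ hφ
    by_contra hc
    push Not at hc
    refine hcon (isRootParam_of_general hG hb hbig (v := v)
      (Γ := (LinearMap.id + α) ∘ₗ rowMap φ ∘ₗ (LinearMap.id - A)) (fun u => ?_) ?_ fun φ' => ?_)
    · simp [rowMap_colMap, hφ, hα, map_sub]
    · exact (mem_conj (hG.right φ v hφ) hA hA2).congr fun X => by simp [hα, map_add, map_sub]
    · obtain ⟨X, hX⟩ := hc φ'
      exact ⟨X, by simpa [rowMap_apply] using hX⟩
  choose φ' hφ' using hscal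
  have hAX : ∀ φ (h : v ⬝ᵥ φ = 0) X,
      rowMap φ (A X) = rowMap φ X - rowMap (φ' φ h) X + α (rowMap (φ' φ h) X) := by
    intro φ h X
    have h1 := hφ' φ h X
    rw [← h1, map_sub, map_add, hα2]
    abel
  -- `A` vanishes on the line
  have hα0 : ∀ u, α u = 0 := by
    by_contra hne
    push Not at hne
    obtain ⟨u₀, hu₀⟩ := hne
    have key : ∀ φ (h : v ⬝ᵥ φ = 0), φ' φ h = φ := by
      intro φ h
      by_cases hdep : ∃ w : Fin b → F, w ⬝ᵥ φ = 1 ∧ w ⬝ᵥ φ' φ h = 0
      · exfalso
        obtain ⟨w, hw1, hw0⟩ := hdep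
        let g : ((Fin a → F) × F) →ₗ[F] LinearMap.range A :=
          LinearMap.codRestrict _ (A ∘ₗ (LinearMap.coprod (colMap w)
            (LinearMap.toSpanSingleton F _ (colMap v u₀)))) fun x => LinearMap.mem_range_self A _
        have hg : Function.Injective g := by
          rw [injective_iff_map_eq_zero]
          rintro ⟨u, s⟩ hx
          have hx' : A (colMap w u) + s • colMap v (α u₀) = 0 := by
            have := congrArg Subtype.val hx
            simpa [g, map_add, map_smul, hα] using this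
          have h1 := congrArg (rowMap φ) hx'
          rw [map_add, map_smul, rowMap_colMap, h, zero_smul, smul_zero, add_zero, hAX φ h,
            rowMap_colMap, rowMap_colMap, hw1, hw0, map_zero] at h1
          simp at h1
          subst h1
          simp only [map_zero, zero_add, smul_eq_zero] at hx'
          rcases hx' with rfl | h0
          · rfl
          · exact absurd (colMap_injective hv (h0.trans (map_zero (colMap v)).symm)) hu₀
        have := LinearMap.finrank_le_finrank_of_injective hg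
        rw [Module.finrank_prod, finrank_fin_fun, Module.finrank_self] at this
        omega
      push Not at hdep
      rcases eq_or_ne (φ' φ h) 0 with h0 | h0
      · rcases eq_or_ne φ 0 with hφ0 | hφ0
        · rw [h0, hφ0]
        · obtain ⟨w, hw⟩ := exists_dot_eq_one hφ0
          exact absurd (by rw [h0, dotProduct_zero]) (hdep w (by rw [dotProduct_comm]; exact hw))
      by_cases hin : φ ∈ F ∙ φ' φ h
      swap
      · obtain ⟨w, hw1, hw0⟩ := exists_dot_pair h0 hin
        exact absurd hw0 (hdep w hw1)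
      obtain ⟨c, hc⟩ := Submodule.mem_span_singleton.1 hin
      set χ := φ' φ h with hχ
      have h1 : ∀ X, c • rowMap χ (A X) = (c - 1) • rowMap χ X + α (rowMap χ X) := fun X => by
        have := hAX φ h X
        rw [← hχ] at this
        have e : ∀ Y : Matrix (Fin a) (Fin b) F, rowMap φ Y = c • rowMap χ Y := fun Y => by
          rw [← rowMap_smul, hc]
        rw [e, e] at this
        rw [this]; module
      obtain ⟨j, hj⟩ := Function.ne_iff.1 h0
      set X₀ := colMap (Pi.single j (χ j)⁻¹) (α u₀) with hX₀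
      have hX₀χ : rowMap χ X₀ = α u₀ := by
        rw [hX₀, rowMap_colMap, single_dotProduct, inv_mul_cancel₀ hj, one_smul]
      have h2 := h1 (A X₀)
      rw [hA2, map_zero, smul_zero] at h2
      have h3 := h1 X₀
      rw [hX₀χ, hα2, add_zero] at h3
      have h5 : α (rowMap χ (A X₀)) = -((c - 1) • rowMap χ (A X₀)) :=
        eq_neg_of_add_eq_zero_right h2.symm
      have h4 : (c - 1) * (c - 1) = 0 := by
        have := congrArg α h3
        rw [map_smul, map_smul, h5, hα2, smul_zero, smul_neg, neg_eq_zero, smul_comm, h3,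
          smul_smul, smul_eq_zero] at this
        exact this.resolve_right hu₀
      have hc1 : c = 1 := by
        rcases mul_eq_zero.1 h4 with h | h <;> exact sub_eq_zero.1 h
      rw [← hc, hc1, one_smul]
    let g : (Fin b → F) →ₗ[F] LinearMap.range A :=
      { toFun := fun w => ⟨A (colMap w u₀), LinearMap.mem_range_self A _⟩
        map_add' := fun w w' => Subtype.ext (by
          show A (vecMulVec u₀ (w + w')) = A (vecMulVec u₀ w) + A (vecMulVec u₀ w')
          rw [vecMulVec_add, map_add])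
        map_smul' := fun c w => Subtype.ext (by
          show A (vecMulVec u₀ (c • w)) = c • A (vecMulVec u₀ w)
          rw [vecMulVec_smul, map_smul]) }
    have hg : Function.Injective g := by
      rw [injective_iff_map_eq_zero]
      intro w hw
      have hw' : A (colMap w u₀) = 0 := congrArg Subtype.val hw
      by_cases hin : w ∈ F ∙ v
      · obtain ⟨c, rfl⟩ := Submodule.mem_span_singleton.1 hin
        rw [colMap_smul_right, map_smul, hα] at hw'
        rcases smul_eq_zero.1 hw' with h | h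
        · rw [h, zero_smul]
        · exact absurd (colMap_injective hv (h.trans (map_zero (colMap v)).symm)) hu₀
      exfalso
      obtain ⟨φ, hφ1, hφ0⟩ := exists_dot_pair hv hin
      rw [dotProduct_comm] at hφ1 hφ0
      have h1 := hAX φ hφ0 (colMap w u₀)
      rw [hw', map_zero, key φ hφ0, sub_self, zero_add, rowMap_colMap, hφ1, one_smul] at h1
      exact hu₀ h1.symm
    have := LinearMap.finrank_le_finrank_of_injective hg
    rw [finrank_fin_fun] at this
    omega
  have hAX' : ∀ φ (h : v ⬝ᵥ φ = 0) X, rowMap φ (A X) = rowMap (φ - φ' φ h) X := fun φ h X => by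
    rw [hAX φ h, hα0, add_zero]
    simp only [rowMap_apply]
    exact (mulVec_sub _ _ _).symm
  obtain ⟨φ₀, hφ₀, hν⟩ : ∃ φ₀, ∃ h : v ⬝ᵥ φ₀ = 0, φ₀ - φ' φ₀ h ≠ 0 := by
    by_contra hc
    push Not at hc
    refine hrange v ?_
    rintro _ ⟨X, rfl⟩
    exact ⟨_, (eq_colMap_of_perp hℓ fun φ h => by rw [hAX' φ h, hc φ h]; simp [rowMap_apply]).symm⟩
  set ν := φ₀ - φ' φ₀ hφ₀ with hνd
  obtain ⟨w₀, hw₀⟩ := exists_dot_eq_one hν
  rw [dotProduct_comm] at hw₀
  let R : LinearMap.range A →ₗ[F] (Fin a → F) := rowMap φ₀ ∘ₗ (LinearMap.range A).subtype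
  have hRA : ∀ X, R ⟨A X, LinearMap.mem_range_self A X⟩ = rowMap ν X := fun X => hAX' φ₀ hφ₀ X
  have hRsurj : Function.Surjective R := fun u => ⟨⟨A (colMap w₀ u), LinearMap.mem_range_self A _⟩, by
    rw [hRA, rowMap_colMap, hw₀, one_smul]⟩
  have hdim : finrank F (LinearMap.range A) = a := by
    have := LinearMap.finrank_range_le R
    rw [LinearMap.range_eq_top.2 hRsurj, finrank_top, finrank_fin_fun] at this
    omega
  have hRinj : Function.Injective R := (LinearMap.injective_iff_surjective_of_finrank_eq_finrank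
    (by rw [hdim, finrank_fin_fun])).2 hRsurj
  set Θ : (Fin a → F) →ₗ[F] Matrix (Fin a) (Fin b) F := A ∘ₗ colMap w₀ with hΘd
  have hΘ : ∀ X, A X = Θ (rowMap ν X) := fun X => congrArg Subtype.val (@hRinj
    ⟨A X, LinearMap.mem_range_self A X⟩ ⟨Θ (rowMap ν X), LinearMap.mem_range_self A _⟩ (by
      rw [hRA]
      show _ = rowMap φ₀ (A (colMap w₀ (rowMap ν X)))
      rw [hAX' φ₀ hφ₀, ← hνd, rowMap_colMap, hw₀, one_smul]))
  have hΘinj : ∀ u, Θ u = 0 → u = 0 := fun u h => by
    have := congrArg (rowMap φ₀) h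
    rwa [hΘd, LinearMap.comp_apply, hAX' φ₀ hφ₀, ← hνd, rowMap_colMap, hw₀, one_smul,
      map_zero] at this
  have hνΘ : ∀ u, rowMap ν (Θ u) = 0 := fun u => hΘinj _ (by rw [← hΘ, hΘd]; exact hA2 _)
  have hvν : v ⬝ᵥ ν = 0 := by
    by_contra hc
    set e : Fin a → F := Pi.single ⟨0, by omega⟩ 1
    have he : e ≠ 0 := fun h => one_ne_zero (by simpa [e] using congrFun h ⟨0, by omega⟩ : (1 : F) = 0)
    have h1 : A (colMap v e) = 0 := by rw [hα, hα0, map_zero]
    rw [hΘ, rowMap_colMap] at h1
    exact (smul_ne_zero hc he) (hΘinj _ h1)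
  -- the shape of the range
  have hψ : ∀ j, v ⬝ᵥ (Pi.single j 1 - v j • ℓ) = 0 := fun j => by
    rw [dotProduct_sub, dotProduct_single, dotProduct_smul, hℓ]; simp
  set v₁ : Fin b → F := fun j => w₀ ⬝ᵥ ((Pi.single j 1 - v j • ℓ) -
    φ' (Pi.single j 1 - v j • ℓ) (hψ j)) with hv₁
  set Δ : (Fin a → F) →ₗ[F] (Fin a → F) := rowMap ℓ ∘ₗ Θ with hΔ
  have hshape : ∀ u, Θ u = colMap v₁ u + colMap v (Δ u) := by
    intro u
    ext i j
    have h1 := congrFun (hAX' _ (hψ j) (colMap w₀ u)) i
    rw [rowMap_colMap, show A (colMap w₀ u) = Θ u from rfl] at h1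
    simp only [rowMap_apply, mulVec_sub, mulVec_smul, Pi.sub_apply, Pi.smul_apply, smul_eq_mul,
      mulVec_single_one, col_apply] at h1
    simp only [Matrix.add_apply, colMap_apply, vecMulVec_apply, hΔ, LinearMap.comp_apply,
      rowMap_apply, hv₁]
    linear_combination h1
  have hnsc : ∀ c : F, Δ ≠ c • LinearMap.id := fun c hc => by
    refine hrange (v₁ + c • v) ?_
    rintro _ ⟨X, rfl⟩
    refine ⟨rowMap ν X, ?_⟩
    rw [hΘ, hshape, hc]
    show vecMulVec _ (v₁ + c • v) = vecMulVec _ v₁ + colMap v (c • rowMap ν X)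
    rw [vecMulVec_add, map_smul, ← colMap_smul_right]
    rfl
  refine hcon (isRootParam_of_diff hnsc hbig fun g z hgz => params_of_one hG hb hvν hν ?_)
  set σ : (Fin a → F) →ₗ[F] (Fin a → F) := g.smulRight z with hσ
  have h1 : Mem G (colMap v₁ ∘ₗ rowMap ν +
      rootMap ((LinearMap.id + σ) ∘ₗ Δ ∘ₗ (LinearMap.id - σ)) ν v) :=
    (mem_conj hA (hG.left g z hgz) fun X => by
      rw [leftMap_leftMap, show g.smulRight z ∘ₗ g.smulRight z = 0 from
        LinearMap.ext fun x => by simp [hgz]]
      simp [leftMap]).congr fun X => by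
      simp only [hΘ, hshape, LinearMap.comp_apply, LinearMap.add_apply, LinearMap.sub_apply,
        LinearMap.id_apply, map_add, map_sub, rowMap_leftMap, leftMap_colMap, hσ,
        LinearMap.smulRight_apply, map_smul, hgz, zero_smul, map_zero, add_zero]
      module
  have h2 := hA.neg hA2
  refine (h1.add h2 fun X => ?_).congr fun X => ?_
  · have h0 : rowMap ν (A X) = 0 := by rw [hΘ]; exact hνΘ _
    simp [map_neg, h0]
  · rw [LinearMap.add_apply, LinearMap.neg_apply, hΘ, hshape]
    simp [map_sub]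
    abel

end Cfsg.Agent.MaxSub.TensorMax
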