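import Mathlib

/-!
Endomorphisms of a symplectic space: elations generate, and skew maps are sums of wedges.
-/

set_option autoImplicit false

namespace Cfsg.Agent.MaxSub.TensorMax

open Module

variable {F : Type*} [Field F] {U : Type*} [AddCommGroup U] [Module F U]

/-- A non-degenerate alternating form. -/
structure Alt (f : U →ₗ[F] U →ₗ[F] F) : Prop where
  alt : ∀ u, f u u = 0
  nd : ∀ u, (∀ u', f u u' = 0) → u = 0

/-- The elation `r ↦ f(z, r) z`. -/
def elat (f : U →ₗ[F] U →ₗ[F] F) (z : U) : U →ₗ[F] U := (f z).smulRight z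

/-- The wedge of two vectors. -/
def wedge (f : U →ₗ[F] U →ₗ[F] F) (p q : U) : U →ₗ[F] U :=
  (f.flip p).smulRight q - (f.flip q).smulRight p

lemma elat_apply (f : U →ₗ[F] U →ₗ[F] F) (z r : U) : elat f z r = f z r • z := rfl

lemma wedge_apply (f : U →ₗ[F] U →ₗ[F] F) (p q r : U) :
    wedge f p q r = f r p • q - f r q • p := rfl

/-- The functional and the vector of a line with a dual vector. -/
lemma exists_functional {x y : U} (hy : y ∉ F ∙ x) :
    ∃ g : U →ₗ[F] F, g x = 0 ∧ g y = 1 := by
  obtain ⟨g, hg, hg0⟩ := Submodule.exists_dual_map_eq_bot_of_notMem hy inferInstance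
  refine ⟨(g y)⁻¹ • g, ?_, by simp [hg]⟩
  have : g x = 0 := (Submodule.eq_bot_iff _).1 hg0 _ ⟨x, Submodule.mem_span_singleton_self x, rfl⟩
  simp [this]

namespace Alt

variable {f : U →ₗ[F] U →ₗ[F] F} (hf : Alt f)
include hf

lemma skew (x y : U) : f x y = -f y x := by
  have h := hf.alt (x + y)
  simp only [map_add, LinearMap.add_apply, hf.alt] at h
  linear_combination h

lemma elat_conj (z : U) (t : F) (r : U) :
    ((LinearMap.id : U →ₗ[F] U) - t • elat f z) (((LinearMap.id : U →ₗ[F] U) + t • elat f z) r) = r := by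
  simp [elat_apply, hf.alt]

variable [FiniteDimensional F U]

lemma exists_dual (g : U →ₗ[F] F) : ∃ c : U, f c = g := by
  have hinj : Function.Injective (f : U → Dual F U) := by
    rw [← LinearMap.ker_eq_bot, LinearMap.ker_eq_bot']
    exact fun u hu => hf.nd u fun u' => by rw [hu]; rfl
  exact (LinearMap.injective_iff_surjective_of_finrank_eq_finrank
    (f := (f : U →ₗ[F] Dual F U)) (Subspace.dual_finrank_eq).symm).1 hinj g

/-- A vector pairing to one with `y` and to zero with `x`. -/
lemma exists_pair {x y : U} (hy : y ∉ F ∙ x) : ∃ c, f c y = 1 ∧ f c x = 0 := by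
  obtain ⟨g, hgx, hgy⟩ := exists_functional hy
  obtain ⟨c, rfl⟩ := hf.exists_dual g
  exact ⟨c, hgy, hgx⟩

/-- Elations are transitive on non-zero vectors. -/
lemma elat_transitive {P : U → Prop} {z z' : U} (hz : z ≠ 0) (hz' : z' ≠ 0) (h : P z)
    (hstep : ∀ c t, ∀ x, P x → P (x + (t * f c x) • c)) : P z' := by
  have one : ∀ x y : U, f x y ≠ 0 → P x → P y := by
    intro x y hxy hx
    have h1 := hstep (y - x) (f (y - x) x)⁻¹ x hx
    have hne : f (y - x) x ≠ 0 := by
      rw [map_sub, LinearMap.sub_apply, hf.alt, sub_zero, hf.skew]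
      exact neg_ne_zero.2 hxy
    rwa [inv_mul_cancel₀ hne, one_smul, add_sub_cancel] at h1
  by_cases hzz : f z z' ≠ 0
  · exact one z z' hzz h
  obtain ⟨y, hy⟩ : ∃ y, f z y ≠ 0 := by
    by_contra hc; push Not at hc; exact hz (hf.nd z hc)
  obtain ⟨y', hy'⟩ : ∃ y, f z' y ≠ 0 := by
    by_contra hc; push Not at hc; exact hz' (hf.nd z' hc)
  obtain ⟨m, hm, hm'⟩ : ∃ m, f z m ≠ 0 ∧ f m z' ≠ 0 := by
    by_cases h1 : f y z' ≠ 0
    · exact ⟨y, hy, h1⟩
    by_cases h2 : f z y' ≠ 0
    · exact ⟨y', h2, by rw [hf.skew]; exact neg_ne_zero.2 hy'⟩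
    push Not at h1 h2
    refine ⟨y + y', by rw [map_add, h2, add_zero]; exact hy, ?_⟩
    rw [map_add, LinearMap.add_apply, h1, zero_add, hf.skew]
    exact neg_ne_zero.2 hy'
  exact one m z' hm' (one z m hm h)

/-- Non-scalar members of an algebra invariant under elations give an elation. -/
lemma exists_elat_mem {P : (U →ₗ[F] U) → Prop}
    (hadd : ∀ M N, P M → P N → P (M + N)) (hsmul : ∀ (c : F) N, P N → P (c • N))
    (hmul : ∀ M N, P M → P N → P (M ∘ₗ N))
    (hconj : ∀ (z : U) (t : F) N, P N →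
      P ((LinearMap.id + t • elat f z) ∘ₗ N ∘ₗ (LinearMap.id - t • elat f z)))
    (hbig : (∃ t : F, t ≠ 0 ∧ t ≠ 1) ∨ 3 ≤ finrank F U) {N : U →ₗ[F] U} (hN : P N)
    {z : U} (hz : N z ∉ F ∙ z) : ∃ d, d ≠ 0 ∧ P (elat f d) := by
  have hsub : ∀ M N, P M → P N → P (M - N) := fun M N hM hN => by
    rw [sub_eq_add_neg, ← neg_one_smul F N]; exact hadd _ _ hM (hsmul _ _ hN)
  -- a member of rank one suffices
  have rankOne : ∀ (φ : U →ₗ[F] F) (u : U), φ ≠ 0 → u ≠ 0 → P (φ.smulRight u) →
      ∃ d, d ≠ 0 ∧ P (elat f d) := by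
    intro φ u hφ hu hP
    obtain ⟨d, rfl⟩ := hf.exists_dual φ
    have hd : d ≠ 0 := fun h => hφ (by rw [h, map_zero])
    refine ⟨d, hd, ?_⟩
    by_cases hud : u ∈ F ∙ d
    · obtain ⟨k, rfl⟩ := Submodule.mem_span_singleton.1 hud
      have hk : k ≠ 0 := fun h => hu (by rw [h, zero_smul])
      convert hsmul k⁻¹ _ hP using 1
      exact LinearMap.ext fun r => by
        simp only [elat_apply, LinearMap.smul_apply, LinearMap.smulRight_apply, smul_smul]
        rw [mul_left_comm, inv_mul_cancel₀ hk, mul_one]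
    have hmem : ∀ c, f c d = 0 → f c u ≠ 0 → P ((f d).smulRight c) := by
      intro c hcd hcu
      have hdc : f d c = 0 := by rw [hf.skew, hcd, neg_zero]
      convert hsmul (f c u)⁻¹ _ (hsub _ _ (hconj c 1 _ hP) hP) using 1
      refine LinearMap.ext fun r => ?_
      simp [elat_apply, hdc]
      match_scalars <;> field_simp
    by_cases hdu : f d u ≠ 0
    · exact hmem d (hf.alt d) hdu
    push Not at hdu
    obtain ⟨c, hcu, hcd⟩ := hf.exists_pair hud
    have h1 := hsub _ _ (hmem (d + c) (by simp [hf.alt, hcd]) (by simp [hdu, hcu]))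
      (hmem c hcd (by simp [hcu]))
    convert h1 using 1
    exact LinearMap.ext fun r => by simp [elat_apply]
  set w := N z with hw
  set c := f z w with hc
  set n : U →ₗ[F] U := (LinearMap.id + (1 : F) • elat f z) ∘ₗ N ∘ₗ
    (LinearMap.id - (1 : F) • elat f z) - N with hn
  have hPn : P n := hsub _ _ (hconj z 1 N hN) hN
  set α : U →ₗ[F] F := f z ∘ₗ N - c • f z with hα
  have hnr : ∀ r, n r = α r • z - f z r • w := fun r => by
    simp [hn, hα, elat_apply, hw, hc]
    module
  have hz0 : z ≠ 0 := fun h => hz (by simp [hw, h])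
  have hzw : z ∉ F ∙ w := fun h => by
    obtain ⟨s, hs⟩ := Submodule.mem_span_singleton.1 h
    have hs0 : s ≠ 0 := fun h0 => hz0 (by rw [← hs, h0, zero_smul])
    exact hz (Submodule.mem_span_singleton.2 ⟨s⁻¹, by rw [← hs, inv_smul_smul₀ hs0]⟩)
  have hαz : α z = c := by simp [hα, hw, hc, hf.alt]
  have hnz : n z = c • z := by rw [hnr, hαz, hf.alt, zero_smul, sub_zero]
  have hnw : n w = α w • z - c • w := hnr w
  by_cases hc0 : c = 0
  · have hfz : f z ≠ 0 := fun h => hz0 (hf.nd z fun u' => by rw [h]; rfl)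
    by_cases hαw : α w ≠ 0
    · refine rankOne (f z) (-α w • z) hfz (smul_ne_zero (neg_ne_zero.2 hαw) hz0) ?_
      convert hmul _ _ hPn hPn using 1
      refine LinearMap.ext fun r => ?_
      simp [hnr, map_sub, map_smul, hαz, hf.alt, hc0, hc ▸ hc0]
      module
    push Not at hαw
    by_cases hα0 : α = 0
    · refine rankOne (f z) (-w) hfz (neg_ne_zero.2 fun h => hz (by rw [h]; exact zero_mem _)) ?_
      convert hPn using 1
      exact LinearMap.ext fun r => by simp [hnr, hα0]
    obtain ⟨x, hxz, hxw⟩ := hf.exists_pair hzw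
    have h1 := hmul _ _ hPn (hconj x 1 n hPn)
    refine rankOne (α ∘ₗ (LinearMap.id - (1 : F) • elat f x)) (n x) ?_ ?_ ?_
    · intro h
      apply hα0
      refine LinearMap.ext fun r => ?_
      have := LinearMap.congr_fun h (((LinearMap.id : U →ₗ[F] U) + (1 : F) • elat f x) r)
      rwa [LinearMap.comp_apply, hf.elat_conj] at this
    · intro h
      rw [hnr, hf.skew z x, hxz, neg_smul, one_smul, sub_neg_eq_add] at h
      have : w ∈ F ∙ z := Submodule.mem_span_singleton.2 ⟨-α x, by
        rw [neg_smul]; exact (neg_eq_of_add_eq_zero_right h).symm ▸ by simp⟩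
      exact hz this
    · convert h1 using 1
      refine LinearMap.ext fun r => ?_
      simp only [LinearMap.comp_apply, LinearMap.smulRight_apply, LinearMap.add_apply,
        LinearMap.id_apply, one_smul, map_add]
      set s := ((LinearMap.id : U →ₗ[F] U) - elat f x) r
      rw [elat_apply, map_smul, hnr s, map_sub (f x), map_smul (f x), map_smul (f x), hxz, hxw,
        map_sub n, map_smul n, map_smul n, hnz, hnw, hαw, hc0]
      simp [s]
  by_cases ht : ∃ t : F, t ≠ 0 ∧ t ≠ 1
  · obtain ⟨t, ht0, ht1⟩ := ht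
    refine ⟨z, hz0, ?_⟩
    have hne : t - t * t ≠ 0 := by
      rw [show t - t * t = t * (1 - t) by ring]
      exact mul_ne_zero ht0 (sub_ne_zero.2 (Ne.symm ht1))
    have hc' : f z (N z) ≠ 0 := hc0
    convert hsmul ((t - t * t)⁻¹ * c⁻¹) _
      (hsub _ _ (hsub _ _ (hconj z t N hN) hN) (hsmul t _ hPn)) using 1
    refine LinearMap.ext fun r => ?_
    simp [hn, elat_apply, hc, hw]
    match_scalars <;> field_simp <;> ring
  have h3 := hbig.resolve_left ht
  obtain ⟨k, hk, hk0⟩ : ∃ k, n k = 0 ∧ k ≠ 0 := by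
    obtain ⟨k, hk, hk0⟩ := Submodule.exists_mem_ne_zero_of_ne_bot
      (LinearMap.ker_ne_bot_of_finrank_lt (f := LinearMap.pi ![α, f z]) (by simp; omega))
    have h0 : α k = 0 := congrFun (LinearMap.mem_ker.1 hk) 0
    have h1 : f z k = 0 := congrFun (LinearMap.mem_ker.1 hk) 1
    exact ⟨k, by rw [hnr, h0, h1, zero_smul, zero_smul, sub_zero], hk0⟩
  by_cases hkn : ∃ r, f k (n r) ≠ 0
  · obtain ⟨r, hr⟩ := hkn
    refine rankOne (f k ∘ₗ n) k (fun h => hr (LinearMap.congr_fun h r)) hk0 ?_
    convert hsub _ _ (hconj k 1 n hPn) hPn using 1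
    exact LinearMap.ext fun r => by simp [elat_apply, hk]
  push Not at hkn
  have hkz : f k z = 0 := by
    have := hkn z
    rw [hnz, map_smul, smul_eq_mul] at this
    exact (mul_eq_zero.1 this).resolve_left hc0
  have hkw : f k w = 0 := by
    have := hkn w
    rw [hnw, map_sub, map_smul, map_smul, hkz, smul_zero, zero_sub, neg_eq_zero, smul_eq_mul] at this
    exact (mul_eq_zero.1 this).resolve_left hc0
  set π := n ∘ₗ n with hπ
  have hπw : π w = (c * c) • w := by
    rw [hπ, LinearMap.comp_apply, hnw, map_sub, map_smul, map_smul, hnz, hnw]; module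
  have hπr : ∀ r, π (π r) = (c * c) • π r := fun r => by
    simp [hπ, hnr, hnz, hnw, map_sub, map_smul, hαz, hf.alt, ← hc]
    module
  have hPπ : P π := hmul _ _ hPn hPn
  refine rankOne ((c * c) • (f w ∘ₗ π)) k ?_ hk0 ?_
  · intro h
    have := LinearMap.congr_fun h z
    simp [hπ, hnz, map_smul, hf.skew w z, ← hc, hc0] at this
  · convert hmul _ _ (hsub _ _ (hconj (w + k) 1 π hPπ) hPπ) hPπ using 1
    refine LinearMap.ext fun r => ?_
    have hπk : π k = 0 := by simp [hπ, hk]
    have h1 : π (w + k) = (c * c) • w := by rw [map_add, hπw, hπk, add_zero]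
    have h2 : f (w + k) w = 0 := by simp [hf.alt, hkw]
    have h3 : f k (π r) = 0 := hkn _
    simp only [LinearMap.comp_apply, LinearMap.sub_apply, LinearMap.add_apply, LinearMap.id_apply,
      one_smul, elat_apply, map_sub, map_smul, map_add, LinearMap.smul_apply,
      LinearMap.smulRight_apply, h1, h2, hπr, h3, hπw, hπk, hkw, hf.alt, smul_eq_mul]
    module

/-- Endomorphisms commuting with all elations modulo scalars are scalar. -/
lemma scalar_of_diff (hbig : (∃ t : F, t ≠ 0 ∧ t ≠ 1) ∨ 3 ≤ finrank F U) {ρ : U →ₗ[F] U}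
    (h : ∀ (z : U) (t : F), ∃ s : F,
      (LinearMap.id - t • elat f z) ∘ₗ ρ ∘ₗ (LinearMap.id + t • elat f z) - ρ = s • LinearMap.id)
    (z : U) : ρ z ∈ F ∙ z := by
  rcases eq_or_ne z 0 with rfl | hz0
  · simp
  set c := f z (ρ z) with hc
  have hform : ∀ (t : F) r,
      t • (f z r • ρ z - f z (ρ r) • z) - (t * t * c) • (f z r • z) = (-t * c) • r := by
    intro t r
    obtain ⟨s, hs⟩ := h z t
    have h1 : ∀ r, t • (f z r • ρ z - f z (ρ r) • z) - (t * t * c) • (f z r • z) = s • r :=
      fun r => by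
        have := LinearMap.congr_fun hs r
        simp [elat_apply] at this
        linear_combination (norm := (simp [← hc]; module)) this
    have h2 := h1 z
    simp only [hf.alt, zero_smul, zero_sub, smul_zero, sub_zero, ← hc] at h2
    have h3 : (-t * c - s) • z = 0 := by linear_combination (norm := module) h2
    rw [h1, sub_eq_zero.1 ((smul_eq_zero.1 h3).resolve_right hz0)]
  obtain ⟨y, hy⟩ : ∃ y, f z y = 1 := by
    obtain ⟨y, hy⟩ : ∃ y, f z y ≠ 0 := by
      by_contra hc'; push Not at hc'; exact hz0 (hf.nd z hc')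
    exact ⟨(f z y)⁻¹ • y, by simp [hy]⟩
  have hc0 : c = 0 := by
    by_cases ht : ∃ t : F, t ≠ 0 ∧ t ≠ 1
    · obtain ⟨t, ht0, ht1⟩ := ht
      have e1 := hform t y
      have e2 := hform 1 y
      rw [hy] at e1 e2
      have h3 : ((t - t * t) * c) • z = 0 := by linear_combination (norm := module) e1 - t • e2
      have hne : t - t * t ≠ 0 := by
        rw [show t - t * t = t * (1 - t) by ring]
        exact mul_ne_zero ht0 (sub_ne_zero.2 (Ne.symm ht1))
      simpa [hne, hz0] using h3
    · obtain ⟨r, hr, hrz⟩ : ∃ r, f z r = 0 ∧ r ∉ F ∙ z := by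
        by_contra hcon
        push Not at hcon
        have h1 : LinearMap.ker (f z) ≤ F ∙ z := fun x hx => hcon x hx
        have h2 := LinearMap.finrank_range_add_finrank_ker (f z)
        have h3 : finrank F (LinearMap.range (f z)) ≤ 1 :=
          (Submodule.finrank_le _).trans (by rw [Module.finrank_self])
        have h4 := Submodule.finrank_mono h1
        rw [finrank_span_singleton hz0] at h4
        have := hbig.resolve_left ht
        omega
      have h1 := hform 1 r
      rw [hr] at h1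
      by_contra hne
      refine hrz (Submodule.mem_span_singleton.2 ⟨c⁻¹ * f z (ρ r), ?_⟩)
      have h2 : f z (ρ r) • z = c • r := by linear_combination (norm := module) -h1
      rw [mul_smul, h2, inv_smul_smul₀ hne]
  have h1 := hform 1 y
  rw [hy, hc0] at h1
  exact Submodule.mem_span_singleton.2 ⟨f z (ρ y), by linear_combination (norm := module) -h1⟩

/-- Skew maps are sums of wedges. -/
lemma skew_induction {P : (U →ₗ[F] U) → Prop} (h0 : P 0)
    (hstep : ∀ p q Y, P Y → P (Y + wedge f p q)) (Y : U →ₗ[F] U) (hY : ∀ k, f (Y k) k = 0) :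
    P Y := by
  induction hd : finrank F (LinearMap.range Y) using Nat.strong_induction_on generalizing Y with
  | _ d ih =>
    subst hd
    have hsk : ∀ r s, f (Y r) s = -f (Y s) r := fun r s => by
      have := hY (r + s)
      simp only [map_add, LinearMap.add_apply, hY] at this
      linear_combination this
    by_cases hY0 : Y = 0
    · exact hY0 ▸ h0
    obtain ⟨x, y, hxy⟩ : ∃ x y, f (Y x) y ≠ 0 := by
      by_contra hc
      push Not at hc
      exact hY0 (LinearMap.ext fun x => hf.nd _ (hc x))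
    set μ := f (Y x) y with hμ
    set Y' := Y + wedge f (μ⁻¹ • Y x) (Y y) with hY'
    have hxy' : f x (Y y) = μ := by rw [hf.skew, hsk, neg_neg]
    have hyx' : f y (Y x) = -μ := by rw [hf.skew]
    have hxx : f x (Y x) = 0 := by rw [hf.skew, hY, neg_zero]
    have hY'x : Y' x = 0 := by
      simp [hY', wedge_apply, hxx, hxy', hxy]
    have hle : LinearMap.ker Y ≤ LinearMap.ker Y' := fun r hr => by
      have hr' : Y r = 0 := hr
      have h1 : ∀ s, f r (Y s) = 0 := fun s => by
        rw [hf.skew, hsk, neg_neg, hr', map_zero, LinearMap.zero_apply]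
      rw [LinearMap.mem_ker]
      simp [hY', wedge_apply, hr', h1]
    have hlt : LinearMap.ker Y < LinearMap.ker Y' := lt_of_le_not_ge hle fun hge => hxy (by
      have h1 : Y x = 0 := hge (LinearMap.mem_ker.2 hY'x)
      rw [hμ, h1, map_zero, LinearMap.zero_apply])
    have hYk : ∀ k, f (Y' k) k = 0 := fun k => by
      simp [hY', wedge_apply, hY, hf.skew (Y y) k, hf.skew (Y x) k]
      ring
    have e1 := LinearMap.finrank_range_add_finrank_ker Y
    have e2 := LinearMap.finrank_range_add_finrank_ker Y'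
    have e3 := Submodule.finrank_lt_finrank_of_lt hlt
    have hP := ih _ (by omega) Y' hYk rfl
    have h2 := hstep (-(μ⁻¹ • Y x)) (Y y) Y' hP
    convert h2 using 1
    exact LinearMap.ext fun r => by simp [hY', wedge_apply]; module

end Alt

end Cfsg.Agent.MaxSub.TensorMax
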