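import Cfsg.Agent.MaxSub.TensorMax.Basic
import Cfsg.Agent.MaxSub.TensorMax.SympAlg

/-!
The tensor product of two symplectic spaces and the algebra of the pairs of orthogonal lines.
-/

set_option autoImplicit false

namespace Cfsg.Agent.MaxSub.TensorMax

open Module Matrix QuadraticMap Cfsg.Agent.MaxSub.ExtField

variable {F : Type*} [Field F] {a b : ℕ}

/-- The quadratic form of a tensor product of two alternating forms. -/
structure SData (F : Type*) [Field F] (a b : ℕ) where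
  /-- the form on the first factor -/
  f : (Fin a → F) →ₗ[F] (Fin a → F) →ₗ[F] F
  /-- the form on the second factor -/
  g : (Fin b → F) →ₗ[F] (Fin b → F) →ₗ[F] F
  /-- the functional of a vector of the second factor -/
  η : (Fin b → F) →ₗ[F] (Fin b → F)
  /-- the quadratic form -/
  Q : QuadraticForm F (Matrix (Fin a) (Fin b) F)
  hf : Alt f
  hg : Alt g
  g_eq : ∀ v w, v ⬝ᵥ η w = g v w
  polar_col : ∀ X w u, polar Q X (colMap w u) = f (rowMap (η w) X) u
  pure : ∀ w u, Q (colMap w u) = 0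

/-- A vector pairing to one with `y` and to zero with a subspace. -/
lemma Alt.exists_pair_sub {U : Type*} [AddCommGroup U] [Module F U] [FiniteDimensional F U]
    {f : U →ₗ[F] U →ₗ[F] F} (hf : Alt f) {S : Submodule F U} {y : U} (hy : y ∉ S) :
    ∃ c, f c y = 1 ∧ ∀ x ∈ S, f c x = 0 := by
  obtain ⟨φ, hφ, hφ0⟩ := Submodule.exists_dual_map_eq_bot_of_notMem hy inferInstance
  obtain ⟨c, hc⟩ := hf.exists_dual ((φ y)⁻¹ • φ)
  refine ⟨c, by simp [hc, hφ], fun x hx => ?_⟩
  have : φ x = 0 := (Submodule.eq_bot_iff _).1 hφ0 _ ⟨x, hx, rfl⟩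
  simp [hc, this]

/-- The elation pair of maps on the lines of `x` and `y`. -/
def cr (D : SData F a b) (x y : Fin b → F) (N : (Fin a → F) →ₗ[F] (Fin a → F)) :
    Matrix (Fin a) (Fin b) F →ₗ[F] Matrix (Fin a) (Fin b) F :=
  colMap x ∘ₗ N ∘ₗ rowMap (D.η y)

namespace SData

variable (D : SData F a b)

/-- The displacement of the element of the pair `x, y`. -/
def q (N N' : (Fin a → F) →ₗ[F] (Fin a → F)) (x y : Fin b → F) :
    Matrix (Fin a) (Fin b) F →ₗ[F] Matrix (Fin a) (Fin b) F :=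
  cr D x y N + cr D y x N'

/-- Independent orthogonal vectors. -/
def Orth (x y : Fin b → F) : Prop := x ≠ 0 ∧ y ∉ F ∙ x ∧ D.g x y = 0

/-- The group consists of isometries and contains the transvections of both factors. -/
structure Good (G : Subgroup (Matrix (Fin a) (Fin b) F ≃ₗ[F] Matrix (Fin a) (Fin b) F)) :
    Prop where
  isom : ∀ h ∈ G, ∀ X, D.Q (h X) = D.Q X
  left : ∀ (z : Fin a → F) (t : F), Mem G (t • leftMap (b := b) (elat D.f z))
  right : ∀ (c : Fin b → F) (t : F),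
    Mem G (t • cr D c c (LinearMap.id : (Fin a → F) →ₗ[F] (Fin a → F)))

/-- The maps occurring at the pairs of orthogonal lines. -/
def Nset (G : Subgroup (Matrix (Fin a) (Fin b) F ≃ₗ[F] Matrix (Fin a) (Fin b) F))
    (N : (Fin a → F) →ₗ[F] (Fin a → F)) : Prop :=
  ∃ N' : (Fin a → F) →ₗ[F] (Fin a → F), (∀ r s, D.f (N r) s = D.f r (N' s)) ∧
    ∀ x y, D.Orth x y → Mem G (D.q N N' x y)

variable {D}

lemma row_col (y x : Fin b → F) (u : Fin a → F) :
    rowMap (D.η y) (colMap x u) = D.g x y • u := by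
  rw [rowMap_colMap, D.g_eq]

lemma col_add (x x' : Fin b → F) (u : Fin a → F) :
    colMap (x + x') u = colMap x u + colMap x' u := vecMulVec_add u x x'

lemma cr_apply (x y : Fin b → F) (N : (Fin a → F) →ₗ[F] (Fin a → F))
    (X : Matrix (Fin a) (Fin b) F) : cr D x y N X = colMap x (N (rowMap (D.η y) X)) := rfl

lemma cr_cr (x y x' y' : Fin b → F) (N M : (Fin a → F) →ₗ[F] (Fin a → F))
    (X : Matrix (Fin a) (Fin b) F) :
    cr D x y N (cr D x' y' M X) = D.g x' y • cr D x y' (N ∘ₗ M) X := by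
  simp [cr_apply, row_col]

lemma polar_col' (X : Matrix (Fin a) (Fin b) F) (w : Fin b → F) (u : Fin a → F) :
    polar D.Q (colMap w u) X = D.f (rowMap (D.η w) X) u := by
  rw [polar_comm, D.polar_col]

lemma Orth.symm {x y : Fin b → F} (h : D.Orth x y) : D.Orth y x := by
  obtain ⟨hx, hy, hxy⟩ := h
  refine ⟨fun h0 => hy (h0 ▸ zero_mem _), fun hm => hy ?_, by rw [D.hg.skew, hxy, neg_zero]⟩
  obtain ⟨c, hc⟩ := Submodule.mem_span_singleton.1 hm
  have hc0 : c ≠ 0 := fun h0 => hx (by rw [← hc, h0, zero_smul])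
  exact Submodule.mem_span_singleton.2 ⟨c⁻¹, by rw [← hc, inv_smul_smul₀ hc0]⟩

lemma Orth.g_symm {x y : Fin b → F} (h : D.Orth x y) : D.g y x = 0 := h.symm.2.2

lemma Orth.smul_left {x y : Fin b → F} (h : D.Orth x y) {t : F} (ht : t ≠ 0) :
    D.Orth (t • x) y := by
  obtain ⟨hx, hy, hxy⟩ := h
  refine ⟨smul_ne_zero ht hx, ?_, by simp [hxy]⟩
  rwa [show F ∙ (t • x) = F ∙ x from
    Submodule.span_singleton_smul_eq (isUnit_iff_ne_zero.2 ht) x]

/-- A vector orthogonal to few vectors outside a small subspace. -/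
lemma exists_perp_avoid {k : ℕ} (c : Fin k → (Fin b → F)) (A : Submodule F (Fin b → F))
    (h : k + finrank F A < b) : ∃ w, w ∉ A ∧ ∀ i, D.g w (c i) = 0 := by
  let φ : (Fin b → F) →ₗ[F] (Fin k → F) := LinearMap.pi fun i => D.g.flip (c i)
  by_contra hc
  push Not at hc
  have h1 : LinearMap.ker φ ≤ A := fun x hx => by
    by_contra hxA
    obtain ⟨i, hi⟩ := hc x hxA
    exact hi (congrFun (LinearMap.mem_ker.1 hx) i)
  have h2 := LinearMap.finrank_range_add_finrank_ker φ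
  have h3 : finrank F (LinearMap.range φ) ≤ k :=
    (Submodule.finrank_le _).trans (by rw [finrank_fin_fun])
  have h4 := Submodule.finrank_mono h1
  rw [finrank_fin_fun] at h2
  omega

lemma finrank_span_pair (x y : Fin b → F) :
    finrank F (Submodule.span F ({x, y} : Set (Fin b → F))) ≤ 2 := by
  classical
  have h5 := finrank_span_finset_le_card (R := F) ({x, y} : Finset (Fin b → F))
  rw [Finset.coe_pair] at h5
  exact h5.trans Finset.card_le_two

/-- A companion of a vector in a pair and room for a second one. -/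
lemma exists_chain (hb : 6 ≤ b) {v e : Fin b → F} (h : D.Orth v e) :
    ∃ e' e₂, D.g e' e = 1 ∧ D.g e' v = 0 ∧ D.g v e' = 0 ∧ D.Orth e' e₂ ∧ D.Orth v e₂ ∧
      D.g e e₂ = 0 ∧ D.g e₂ e = 0 := by
  obtain ⟨e', he', hve'⟩ := D.hg.exists_pair h.2.1
  have he'0 : e' ≠ 0 := fun h0 => by simp [h0] at he'
  obtain ⟨e₂, he₂, hperp⟩ := D.exists_perp_avoid ![v, e, e']
    (Submodule.span F {v, e'}) (by have := finrank_span_pair v e'; omega)
  have h1 : D.g e₂ v = 0 := hperp 0
  have h2 : D.g e₂ e = 0 := hperp 1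
  have h3 : D.g e₂ e' = 0 := hperp 2
  have hne1 : e₂ ∉ F ∙ v := fun hm => he₂ (Submodule.span_mono (by simp) hm)
  have hne2 : e₂ ∉ F ∙ e' := fun hm => he₂ (Submodule.span_mono (by simp) hm)
  exact ⟨e', e₂, he', hve', by rw [D.hg.skew, hve', neg_zero],
    ⟨he'0, hne2, by rw [D.hg.skew, h3, neg_zero]⟩, ⟨h.1, hne1, by rw [D.hg.skew, h1, neg_zero]⟩,
    by rw [D.hg.skew, h2, neg_zero], h2⟩

variable {G : Subgroup (Matrix (Fin a) (Fin b) F ≃ₗ[F] Matrix (Fin a) (Fin b) F)}

/-- The commutator of two elements with vanishing long products. -/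
lemma mem_comm {A B : Matrix (Fin a) (Fin b) F →ₗ[F] Matrix (Fin a) (Fin b) F} (hA : Mem G A)
    (hB : Mem G B) (hAA : ∀ X, A (A X) = 0) (hBB : ∀ X, B (B X) = 0)
    (hABA : ∀ X, A (B (A X)) = 0) (hBAB : ∀ X, B (A (B X)) = 0) :
    Mem G (A ∘ₗ B - B ∘ₗ A) := by
  obtain ⟨g, hg, hgx⟩ := hA
  obtain ⟨k, hk, hkx⟩ := hB
  have hgi : ∀ X, g⁻¹ X = X - A X := fun X => g.injective (by
    rw [self_inv_apply, map_sub, hgx, hgx, hAA, add_zero, add_sub_cancel_right])
  have hki : ∀ X, k⁻¹ X = X - B X := fun X => k.injective (by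
    rw [self_inv_apply, map_sub, hkx, hkx, hBB, add_zero, add_sub_cancel_right])
  refine ⟨g * k * g⁻¹ * k⁻¹, mul_mem (mul_mem (mul_mem hg hk) (inv_mem hg)) (inv_mem hk),
    fun X => ?_⟩
  simp only [LinearEquiv.mul_apply, hgx, hkx, hgi, hki, map_add, map_sub, hAA, hBB, hABA, hBAB,
    map_zero, LinearMap.sub_apply, LinearMap.comp_apply]
  abel

lemma q_q {N N' M M' : (Fin a → F) →ₗ[F] (Fin a → F)} {x y : Fin b → F} (h : D.g x y = 0)
    (X : Matrix (Fin a) (Fin b) F) : D.q N N' x y (D.q M M' x y X) = 0 := by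
  have h' : D.g y x = 0 := by rw [D.hg.skew, h, neg_zero]
  simp [q, cr_cr, h, h', D.hg.alt]

/-- The commutator with an element of a second pair. -/
lemma comm_q {N N' M M' : (Fin a → F) →ₗ[F] (Fin a → F)} {Z : (Fin a → F) →ₗ[F] (Fin a → F)}
    {v e e' e₂ : Fin b → F} (hve : D.g v e = 0) (he'e : D.g e' e = 1) (he'v : D.g e' v = 0)
    (he'2 : D.g e' e₂ = 0) (hv2 : D.g v e₂ = 0) (he2 : D.g e e₂ = 0)
    (hK : Mem G (D.q N N' v e + cr D v v Z)) (hB : Mem G (D.q M M' e' e₂)) :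
    Mem G (D.q (N ∘ₗ M) (M' ∘ₗ N') v e₂) := by
  have hev : D.g e v = 0 := by rw [D.hg.skew, hve, neg_zero]
  have hve' : D.g v e' = 0 := by rw [D.hg.skew, he'v, neg_zero]
  have hee' : D.g e e' = -1 := by rw [D.hg.skew, he'e]
  have h2v : D.g e₂ v = 0 := by rw [D.hg.skew, hv2, neg_zero]
  have h2e : D.g e₂ e = 0 := by rw [D.hg.skew, he2, neg_zero]
  have h2e' : D.g e₂ e' = 0 := by rw [D.hg.skew, he'2, neg_zero]
  refine (mem_comm hK hB ?_ ?_ ?_ ?_).congr fun X => ?_ <;>
  first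
    | intro X
      simp [q, cr_cr, map_add, hve, hev, hve', he'e, hee', he'v, he'2, hv2, he2, h2v, h2e, h2e',
        D.hg.alt]
    | simp [q, cr_cr, map_add, hve, hev, hve', he'e, hee', he'v, he'2, hv2, he2, h2v, h2e, h2e',
        D.hg.alt]

variable (hG : D.Good G)
include hG

/-- Right transvections move the lines. -/
lemma cr_conj {x y x' y' : Fin b → F} {N N' : (Fin a → F) →ₗ[F] (Fin a → F)}
    (h : Mem G (cr D x y N + cr D x' y' N')) (c : Fin b → F) (t : F) :
    Mem G (cr D (x + (t * D.g x c) • c) (y + (t * D.g y c) • c) N +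
      cr D (x' + (t * D.g x' c) • c) (y' + (t * D.g y' c) • c) N') := by
  refine (mem_conj h (hG.right c t) fun X => ?_).congr fun X => ?_
  · simp [cr_cr, D.hg.alt]
  simp only [LinearMap.add_apply, LinearMap.comp_apply, LinearMap.sub_apply, LinearMap.id_apply,
    LinearMap.smul_apply, map_sub, map_smul, map_add, cr_apply, row_col, col_add,
    colMap_smul_right, rowMap_add, rowMap_smul, D.hg.skew c y, D.hg.skew c y', D.hg.skew c x,
    D.hg.skew c x']
  module

lemma q_move_right {N N' : (Fin a → F) →ₗ[F] (Fin a → F)} {x y y' : Fin b → F} (h : D.Orth x y)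
    (h' : D.Orth x y') (hq : Mem G (D.q N N' x y)) : Mem G (D.q N N' x y') := by
  have one : ∀ y y', D.g x y = 0 → D.g x y' = 0 → D.g y y' ≠ 0 → Mem G (D.q N N' x y) →
      Mem G (D.q N N' x y') := by
    intro y y' h1 h2 hyy hm
    have h3 := cr_conj hG hm (y' - y) (D.g y y')⁻¹
    simp only [map_sub, D.hg.alt, sub_zero, inv_mul_cancel₀ hyy, one_smul, add_sub_cancel, h1, h2,
      mul_zero, zero_smul, add_zero] at h3
    exact h3
  by_cases hyy : D.g y y' ≠ 0
  · exact one y y' h.2.2 h'.2.2 hyy hq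
  obtain ⟨z₁, hz₁, hz₁x⟩ := D.hg.exists_pair h.2.1
  obtain ⟨z₂, hz₂, hz₂x⟩ := D.hg.exists_pair h'.2.1
  obtain ⟨z, hzx, hzy, hzy'⟩ : ∃ z, D.g x z = 0 ∧ D.g y z ≠ 0 ∧ D.g z y' ≠ 0 := by
    by_cases h1 : D.g z₁ y' ≠ 0
    · exact ⟨z₁, by rw [D.hg.skew, hz₁x, neg_zero],
        by rw [D.hg.skew, hz₁]; exact neg_ne_zero.2 one_ne_zero, h1⟩
    by_cases h2 : D.g z₂ y ≠ 0
    · exact ⟨z₂, by rw [D.hg.skew, hz₂x, neg_zero], by rw [D.hg.skew]; exact neg_ne_zero.2 h2,
        by rw [hz₂]; exact one_ne_zero⟩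
    push Not at h1 h2
    refine ⟨z₁ + z₂, ?_, ?_, ?_⟩
    · rw [D.hg.skew, map_add, LinearMap.add_apply, hz₁x, hz₂x, add_zero, neg_zero]
    · rw [D.hg.skew, map_add, LinearMap.add_apply, hz₁, h2, add_zero]
      exact neg_ne_zero.2 one_ne_zero
    · rw [map_add, LinearMap.add_apply, h1, hz₂, zero_add]
      exact one_ne_zero
  exact one z y' hzx h'.2.2 hzy' (one y z h.2.2 hzx hzy hq)

lemma q_move (hb : 6 ≤ b) {N N' : (Fin a → F) →ₗ[F] (Fin a → F)} {x y x' y' : Fin b → F}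
    (h : D.Orth x y) (h' : D.Orth x' y') (hq : Mem G (D.q N N' x y)) :
    Mem G (D.q N N' x' y') := by
  obtain ⟨e, he, hperp⟩ := D.exists_perp_avoid ![x, x'] (Submodule.span F {x, x'})
    (by have := finrank_span_pair x x'; omega)
  have h1 : D.g e x = 0 := hperp 0
  have h2 : D.g e x' = 0 := hperp 1
  have o1 : D.Orth x e :=
    ⟨h.1, fun hm => he (Submodule.span_mono (by simp) hm), by rw [D.hg.skew, h1, neg_zero]⟩
  have o2 : D.Orth x' e :=
    ⟨h'.1, fun hm => he (Submodule.span_mono (by simp) hm), by rw [D.hg.skew, h2, neg_zero]⟩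
  have hswap : ∀ {N N' : (Fin a → F) →ₗ[F] (Fin a → F)} {x y}, Mem G (D.q N N' x y) →
      Mem G (D.q N' N y x) := fun hm => hm.congr fun X => by simp [q, add_comm]
  exact q_move_right hG o2 h' (hswap (q_move_right hG o1.symm o2.symm (hswap (q_move_right hG h o1 hq))))

/-- The isometry condition gives the adjoint. -/
lemma adjoint_of_mem {N N' : (Fin a → F) →ₗ[F] (Fin a → F)} {x y : Fin b → F} (h : D.Orth x y)
    (hm : Mem G (D.q N N' x y)) (r s : Fin a → F) : D.f (N r) s = D.f r (N' s) := by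
  obtain ⟨h₀, hh, hx⟩ := hm
  obtain ⟨y₀, hy₀, hy₀x⟩ := D.hg.exists_pair h.2.1
  obtain ⟨x₀, hx₀, hx₀y⟩ := D.hg.exists_pair h.symm.2.1
  have hinv : ∀ X Y, polar D.Q (h₀ X) (h₀ Y) = polar D.Q X Y := fun X Y => by
    simp only [polar, ← map_add, hG.isom h₀ hh]
  have h1 : h₀ (colMap y₀ r) = colMap y₀ r + colMap x (N r) := by
    rw [hx]; simp [q, cr_apply, row_col, hy₀, hy₀x]
  have h2 : h₀ (colMap x₀ s) = colMap x₀ s + colMap y (N' s) := by
    rw [hx]; simp [q, cr_apply, row_col, hx₀, hx₀y]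
  have h3 := hinv (colMap y₀ r) (colMap x₀ s)
  rw [h1, h2] at h3
  simp only [polar_add_left, polar_add_right, D.polar_col, map_add, LinearMap.add_apply, row_col, hy₀, h.2.2,
    D.hg.skew x x₀, hx₀, map_smul, LinearMap.smul_apply, smul_eq_mul] at h3
  rw [D.hf.skew (N r) s] at h3 ⊢
  linear_combination -h3

lemma nset_of_mem (hb : 6 ≤ b) {N N' : (Fin a → F) →ₗ[F] (Fin a → F)} {x y : Fin b → F}
    (h : D.Orth x y) (hm : Mem G (D.q N N' x y)) : D.Nset G N :=
  ⟨N', adjoint_of_mem hG h hm, fun _ _ h' => q_move hG hb h h' hm⟩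

omit hG in
lemma Nset.add {N M : (Fin a → F) →ₗ[F] (Fin a → F)} (hN : D.Nset G N) (hM : D.Nset G M) :
    D.Nset G (N + M) := by
  obtain ⟨N', hN', hN''⟩ := hN
  obtain ⟨M', hM', hM''⟩ := hM
  refine ⟨N' + M', fun r s => by simp [hN', hM'], fun x y h => ?_⟩
  exact ((hN'' x y h).add (hM'' x y h) (q_q h.2.2)).congr fun X => by
    simp [q, cr_apply]; abel

omit hG in
lemma Nset.smul {N : (Fin a → F) →ₗ[F] (Fin a → F)} (hN : D.Nset G N) (c : F) :
    D.Nset G (c • N) := by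
  obtain ⟨N', hN', hN''⟩ := hN
  refine ⟨c • N', fun r s => by simp [hN'], fun x y h => ?_⟩
  rcases eq_or_ne c 0 with rfl | hc
  · exact mem_zero.congr fun X => by simp [q, cr_apply]
  · exact (hN'' _ _ (h.smul_left hc)).congr fun X => by
      simp [q, cr_apply, colMap_smul_right, rowMap_smul]

omit hG in
lemma Nset.sub {N M : (Fin a → F) →ₗ[F] (Fin a → F)} (hN : D.Nset G N) (hM : D.Nset G M) :
    D.Nset G (N - M) := by
  rw [sub_eq_add_neg, ← neg_one_smul F M]
  exact hN.add (hM.smul _)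

lemma Nset.conj {N : (Fin a → F) →ₗ[F] (Fin a → F)} (hN : D.Nset G N) (z : Fin a → F) (t : F) :
    D.Nset G ((LinearMap.id + t • elat D.f z) ∘ₗ N ∘ₗ (LinearMap.id - t • elat D.f z)) := by
  obtain ⟨N', hN', hN''⟩ := hN
  refine ⟨(LinearMap.id + t • elat D.f z) ∘ₗ N' ∘ₗ (LinearMap.id - t • elat D.f z),
    fun r s => ?_, fun x y h => ?_⟩
  · have hinv : ∀ p r, D.f (p + (t * D.f z p) • z) r = D.f p (r - (t * D.f z r) • z) := fun p r => by
      simp [D.hf.skew p z]
      ring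
    have hinv' : ∀ p r, D.f p (r + (t * D.f z r) • z) = D.f (p - (t * D.f z p) • z) r := fun p r => by
      simp [D.hf.skew p z]
      ring
    simp only [LinearMap.comp_apply, LinearMap.add_apply, LinearMap.sub_apply, LinearMap.id_apply,
      LinearMap.smul_apply, elat_apply, smul_smul]
    rw [hinv, hN', hinv']
  · refine (mem_conj (hN'' x y h) (hG.left z t) fun X => ?_).congr fun X => ?_
    · have h0 : leftMap (b := b) (elat D.f z) (leftMap (elat D.f z) X) = 0 := by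
        rw [leftMap_leftMap, show elat D.f z ∘ₗ elat D.f z = 0 from
          LinearMap.ext fun r => by simp [elat_apply, D.hf.alt]]
        simp [leftMap]
      simp [h0]
    · simp only [q, cr_apply, LinearMap.add_apply, LinearMap.comp_apply, LinearMap.sub_apply,
        LinearMap.id_apply, LinearMap.smul_apply, map_add, map_sub, map_smul, rowMap_leftMap,
        leftMap_colMap]
      module

/-- The identity occurs at every orthogonal pair. -/
lemma mem_q_one {x y : Fin b → F} (h : D.g x y = 0) :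
    Mem G (D.q (LinearMap.id : (Fin a → F) →ₗ[F] (Fin a → F)) LinearMap.id x y) := by
  have h' : D.g y x = 0 := by rw [D.hg.skew, h, neg_zero]
  have h1 := hG.right (x + y) 1
  have h2 := hG.right x (-1)
  have h3 := hG.right y (-1)
  refine ((h1.add h2 fun X => ?_).add h3 fun X => ?_).congr fun X => ?_
  · simp [cr_cr, D.hg.alt, h, h']
  · simp [cr_cr, D.hg.alt, h, h']
  · simp [q, cr_apply, col_add, rowMap_add, map_add]
    abel

lemma nset_one : D.Nset G LinearMap.id :=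
  ⟨LinearMap.id, fun _ _ => rfl, fun _ _ h => mem_q_one hG h.2.2⟩

lemma Nset.mul (hb : 6 ≤ b) {N M : (Fin a → F) →ₗ[F] (Fin a → F)} (hN : D.Nset G N)
    (hM : D.Nset G M) : D.Nset G (N ∘ₗ M) := by
  obtain ⟨N', hN', hN''⟩ := hN
  obtain ⟨M', hM', hM''⟩ := hM
  obtain ⟨v, hv, -⟩ := D.exists_perp_avoid (k := 0) ![] ⊥ (by rw [finrank_bot]; omega)
  obtain ⟨e, he, hev⟩ := D.exists_perp_avoid ![v] (F ∙ v)
    (by rw [finrank_span_singleton (fun h => hv (by simp [h]))]; omega)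
  have h : D.Orth v e :=
    ⟨fun h => hv (by simp [h]), he, by rw [D.hg.skew, show D.g e v = 0 from hev 0, neg_zero]⟩
  obtain ⟨e', e₂, h1, h2, -, h4, h5, h6, -⟩ := exists_chain hb h
  refine nset_of_mem hG hb h5 (comm_q (Z := 0) (N' := N') h.2.2 h1 h2 h4.2.2 h5.2.2 h6 ?_ (hM'' _ _ h4))
  exact (hN'' v e h).congr fun X => by simp [cr_apply]

/-- A root element at one line gives a member. -/
lemma nset_of_root (hb : 6 ≤ b) {Y : (Fin a → F) →ₗ[F] (Fin a → F)} {v : Fin b → F} (hv : v ≠ 0)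
    (h : Mem G (cr D v v Y)) : D.Nset G Y := by
  have hall : ∀ w : Fin b → F, w ≠ 0 → Mem G (cr D w w Y) := fun w hw => by
    refine D.hg.elat_transitive (P := fun w => Mem G (cr D w w Y)) hv hw h fun c t x hx => ?_
    have h1 := cr_conj hG (x := x) (y := x) (N := Y) (x' := 0) (y' := 0) (N' := 0)
      (hx.congr fun X => by simp [cr_apply]) c (-t)
    refine h1.congr fun X => ?_
    simp [cr_apply, D.hg.skew x c]
  obtain ⟨e, he, hev⟩ := D.exists_perp_avoid ![v] (F ∙ v) (by rw [finrank_span_singleton hv]; omega)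
  have h1 : D.g e v = 0 := hev 0
  have ho : D.Orth v e := ⟨hv, he, by rw [D.hg.skew, h1, neg_zero]⟩
  have hne : v + e ≠ 0 := fun h0 => he (by
    rw [eq_neg_of_add_eq_zero_right h0]; exact neg_mem (Submodule.mem_span_singleton_self v))
  have he0 : e ≠ 0 := fun h0 => he (h0 ▸ zero_mem _)
  refine nset_of_mem hG hb (N' := Y) ho ?_
  refine (((hall _ hne).add ((hall v hv).neg fun X => ?_) fun X => ?_).add
    ((hall e he0).neg fun X => ?_) fun X => ?_).congr fun X => ?_
  · simp [cr_cr, D.hg.alt]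
  · simp [cr_cr, D.hg.alt, h1, ho.2.2]
  · simp [cr_cr, D.hg.alt]
  · simp [cr_cr, D.hg.alt, h1, ho.2.2]
  · simp [q, cr_apply, col_add, rowMap_add, map_add]
    abel

end SData

end Cfsg.Agent.MaxSub.TensorMax
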